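import Mathlib

/-!
A space with a form that is the tensor product of two forms, and root elements attached to the
isotropic vectors of the second factor, inside an arbitrary subgroup of the general linear group.
-/

set_option autoImplicit false
set_option linter.unusedSectionVars false

namespace CfsgLib.FormTensor89

open Module Matrix

/-- `F^ι` is `V₁ ⊗ V₂` with the form `f₁ ⊗ f₂`. -/
structure TData (ι : Type) (F : Type*) [Field F] (V₁ V₂ : Type*) [AddCommGroup V₁] [Module F V₁]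
    [AddCommGroup V₂] [Module F V₂] where
  σ : F →+* F
  σσ : ∀ a, σ (σ a) = a
  s : F
  s_ne : s ≠ 0
  B : (ι → F) → (ι → F) → F
  f₁ : V₁ → V₁ → F
  f₂ : V₂ → V₂ → F
  ten : V₁ →ₗ[F] V₂ →ₗ[F] (ι → F)
  ctr : V₂ → (ι → F) →ₗ[F] V₁
  cut : (V₁ →ₗ[F] F) → (ι → F) →ₗ[F] V₂
  f₁_add_left : ∀ x y v, f₁ (x + y) v = f₁ x v + f₁ y v
  f₁_smul_left : ∀ (c : F) x v, f₁ (c • x) v = c * f₁ x v
  f₁_add_right : ∀ v x y, f₁ v (x + y) = f₁ v x + f₁ v y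
  f₁_smul_right : ∀ (c : F) v x, f₁ v (c • x) = σ c * f₁ v x
  f₁_nondeg : ∀ x, (∀ v, f₁ x v = 0) → x = 0
  f₁_nondeg' : ∀ v, (∀ x, f₁ x v = 0) → v = 0
  f₂_add_left : ∀ x y v, f₂ (x + y) v = f₂ x v + f₂ y v
  f₂_smul_left : ∀ (c : F) x v, f₂ (c • x) v = c * f₂ x v
  f₂_swap : ∀ x y, f₂ x y = s * σ (f₂ y x)
  f₂_nondeg : ∀ x, (∀ v, f₂ x v = 0) → x = 0
  B_add_right : ∀ X Y Z, B X (Y + Z) = B X Y + B X Z
  B_add_left : ∀ X Y Z, B (X + Y) Z = B X Z + B Y Z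
  ctr_add : ∀ z z' X, ctr (z + z') X = ctr z X + ctr z' X
  ctr_smul : ∀ (c : F) z X, ctr (c • z) X = σ c • ctr z X
  ctr_ten : ∀ w u z, ctr w (ten u z) = f₂ z w • u
  ctr_ext : ∀ X, (∀ z, ctr z X = 0) → X = 0
  cut_ctr : ∀ φ X z, f₂ (cut φ X) z = φ (ctr z X)
  B_ctr : ∀ X u z, B X (ten u z) = f₁ (ctr z X) u
  ten_span : Submodule.span F {X | ∃ u z, ten u z = X} = ⊤

variable {ι : Type} [Fintype ι] [DecidableEq ι] {F : Type*} [Field F] {V₁ V₂ : Type*} [AddCommGroup V₁]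
  [Module F V₁] [AddCommGroup V₂] [Module F V₂] (D : TData ι F V₁ V₂)

/-- `g` is `1 + N`. -/
def InM (M : Subgroup (GL ι F)) (N : (ι → F) →ₗ[F] (ι → F)) : Prop :=
  ∃ g ∈ M, ∀ X, (g : Matrix ι ι F) *ᵥ X = X + N X

lemma inv_mulVec (g : GL ι F) (X : ι → F) :
    ((g⁻¹ : GL ι F) : Matrix ι ι F) *ᵥ ((g : Matrix ι ι F) *ᵥ X) = X := by
  rw [mulVec_mulVec, ← Units.val_mul, inv_mul_cancel, Units.val_one, one_mulVec]

lemma mulVec_inv (g : GL ι F) (X : ι → F) :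
    (g : Matrix ι ι F) *ᵥ (((g⁻¹ : GL ι F) : Matrix ι ι F) *ᵥ X) = X := by
  rw [mulVec_mulVec, ← Units.val_mul, mul_inv_cancel, Units.val_one, one_mulVec]

lemma mul_mulVec (g h : GL ι F) (X : ι → F) :
    ((g * h : GL ι F) : Matrix ι ι F) *ᵥ X = (g : Matrix ι ι F) *ᵥ ((h : Matrix ι ι F) *ᵥ X) := by
  rw [Units.val_mul, mulVec_mulVec]

lemma mulVec_injective (g : GL ι F) : Function.Injective fun X => (g : Matrix ι ι F) *ᵥ X := fun X Y h => by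
  simpa [inv_mulVec] using congrArg (fun Z => ((g⁻¹ : GL ι F) : Matrix ι ι F) *ᵥ Z) h

lemma InM.congr {M : Subgroup (GL ι F)} {N N' : (ι → F) →ₗ[F] (ι → F)} (h : InM M N) (he : ∀ X, N' X = N X) :
    InM M N' := by rwa [LinearMap.ext he]

lemma InM.add {M : Subgroup (GL ι F)} {N N' : (ι → F) →ₗ[F] (ι → F)} (h : InM M N) (h' : InM M N')
    (h0 : ∀ X, N (N' X) = 0) : InM M (N + N') := by
  obtain ⟨g, hg, hgX⟩ := h
  obtain ⟨g', hg', hgX'⟩ := h'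
  refine ⟨g * g', M.mul_mem hg hg', fun X => ?_⟩
  rw [mul_mulVec, hgX', hgX, map_add, h0, LinearMap.add_apply]
  abel

lemma InM.neg {M : Subgroup (GL ι F)} {N : (ι → F) →ₗ[F] (ι → F)} (h : InM M N) (h0 : ∀ X, N (N X) = 0) :
    InM M (-N) := by
  obtain ⟨g, hg, hgX⟩ := h
  refine ⟨g⁻¹, M.inv_mem hg, fun X => mulVec_injective g ?_⟩
  simp only [mulVec_inv]
  rw [LinearMap.neg_apply, ← sub_eq_add_neg, hgX, map_sub, h0, sub_zero, sub_add_cancel]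

lemma InM.zero (M : Subgroup (GL ι F)) : InM M 0 := ⟨1, M.one_mem, fun X => by simp⟩

namespace TData

lemma ctr_zero (X : ι → F) : D.ctr 0 X = 0 := by
  simpa using D.ctr_smul 0 0 X

lemma ctr_sub (z z' : V₂) (X : ι → F) : D.ctr (z - z') X = D.ctr z X - D.ctr z' X := by
  rw [eq_sub_iff_add_eq, ← D.ctr_add, sub_add_cancel]

lemma f₂_zero_left (v : V₂) : D.f₂ 0 v = 0 := by simpa using D.f₂_smul_left 0 0 v

lemma f₂_zero_right (v : V₂) : D.f₂ v 0 = 0 := by rw [D.f₂_swap, f₂_zero_left, map_zero, mul_zero]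

lemma f₂_comm_zero {x y : V₂} (h : D.f₂ x y = 0) : D.f₂ y x = 0 := by
  rw [D.f₂_swap, h, map_zero, mul_zero]

lemma f₂_add_right (v x y : V₂) : D.f₂ v (x + y) = D.f₂ v x + D.f₂ v y := by
  rw [D.f₂_swap, D.f₂_add_left, map_add, mul_add, ← D.f₂_swap, ← D.f₂_swap]

lemma f₂_smul_right (c : F) (v x : V₂) : D.f₂ v (c • x) = D.σ c * D.f₂ v x := by
  rw [D.f₂_swap, D.f₂_smul_left, map_mul, mul_left_comm, ← D.f₂_swap]

lemma f₂_sub_right (v x y : V₂) : D.f₂ v (x - y) = D.f₂ v x - D.f₂ v y := by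
  rw [eq_sub_iff_add_eq, ← f₂_add_right, sub_add_cancel]

lemma f₁_ext {x y : V₁} (h : ∀ v, D.f₁ x v = D.f₁ y v) : x = y := by
  refine sub_eq_zero.1 (D.f₁_nondeg _ fun v => ?_)
  have := D.f₁_add_left (x - y) y v
  rw [sub_add_cancel, h] at this
  linear_combination -this

lemma exists_dual_vec {w : V₂} (hw : w ≠ 0) : ∃ v, D.f₂ w v = 1 := by
  obtain ⟨v, hv⟩ : ∃ v, D.f₂ w v ≠ 0 := by
    by_contra! h; exact hw (D.f₂_nondeg w h)
  exact ⟨D.σ (D.f₂ w v)⁻¹ • v, by rw [f₂_smul_right, D.σσ, inv_mul_cancel₀ hv]⟩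

/-- The member at `w`. -/
def memb (w : V₂) : Submodule F (ι → F) := LinearMap.range (D.ten.flip w)

lemma mem_memb {w : V₂} {X : ι → F} : X ∈ D.memb w ↔ ∃ u, D.ten u w = X := LinearMap.mem_range

lemma ten_mem_memb (u : V₁) (w : V₂) : D.ten u w ∈ D.memb w := D.mem_memb.2 ⟨u, rfl⟩

lemma memb_zero : D.memb 0 = ⊥ := by
  refine le_bot_iff.1 fun X hX => ?_
  obtain ⟨u, rfl⟩ := D.mem_memb.1 hX
  simp

lemma ten_eq_zero {u : V₁} {z : V₂} (hz : z ≠ 0) (h : D.ten u z = 0) : u = 0 := by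
  obtain ⟨v, hv⟩ := D.exists_dual_vec hz
  have := D.ctr_ten v u z
  rw [h, map_zero, hv, one_smul] at this
  exact this.symm

lemma ten_left_injective {z : V₂} (hz : z ≠ 0) : Function.Injective (fun u => D.ten u z) := fun u u' h => by
  refine sub_eq_zero.1 (D.ten_eq_zero hz ?_)
  rw [map_sub, LinearMap.sub_apply]
  exact sub_eq_zero.2 h

lemma ten_eq_zero_right {u : V₁} {z : V₂} (hu : u ≠ 0) (h : D.ten u z = 0) : z = 0 :=
  by_contra fun hz => hu (D.ten_eq_zero hz h)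

/-- Vectors killed by every contraction orthogonal to `w` lie in the member at `w`. -/
lemma mem_memb_of_ctr {w : V₂} (hw : w ≠ 0) {X : ι → F} (h : ∀ z, D.f₂ w z = 0 → D.ctr z X = 0) :
    X ∈ D.memb w := by
  obtain ⟨v, hv⟩ := D.exists_dual_vec hw
  refine D.mem_memb.2 ⟨D.ctr v X, (sub_eq_zero.1 (D.ctr_ext _ fun z => ?_)).symm⟩
  set c := D.σ (D.f₂ w z) with hc
  have hz : D.ctr (z - c • v) X = 0 := h _ (by
    rw [f₂_sub_right, f₂_smul_right, hv, mul_one, hc, D.σσ, sub_self])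
  rw [ctr_sub, sub_eq_zero, D.ctr_smul, hc, D.σσ] at hz
  rw [map_sub, D.ctr_ten, hz, sub_self]

/-- The root map with coefficient `τ`. -/
def R (τ : V₁ →ₗ[F] V₁) (w : V₂) : (ι → F) →ₗ[F] (ι → F) := D.ten.flip w ∘ₗ τ ∘ₗ D.ctr w

@[simp] lemma R_apply (τ : V₁ →ₗ[F] V₁) (w : V₂) (X : ι → F) : D.R τ w X = D.ten (τ (D.ctr w X)) w := rfl

lemma R_sq {τ τ' : V₁ →ₗ[F] V₁} {w : V₂} (hw : D.f₂ w w = 0) (X : ι → F) :
    D.R τ w (D.R τ' w X) = 0 := by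
  simp [D.ctr_ten, hw]

lemma R_smul (τ : V₁ →ₗ[F] V₁) (c : F) (w : V₂) (X : ι → F) :
    D.R τ (c • w) X = D.R ((c * D.σ c) • τ) w X := by
  simp [D.ctr_smul, map_smul, smul_smul, mul_comm]

/-- `M` contains an element fixing the member at `w` pointwise and moving `w^⊥` into it through `φ`. -/
def InS (M : Subgroup (GL ι F)) (w : V₂) (φ : (ι → F) →ₗ[F] V₁) : Prop :=
  ∃ g ∈ M, (∀ u, (g : Matrix ι ι F) *ᵥ D.ten u w = D.ten u w) ∧
    ∀ X, D.ctr w X = 0 → (g : Matrix ι ι F) *ᵥ X = X + D.ten (φ X) w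

variable {D} {M : Subgroup (GL ι F)} {w : V₂} {φ φ' : (ι → F) →ₗ[F] V₁}

lemma InS.congr (h : D.InS M w φ) (he : ∀ X, D.ctr w X = 0 → φ' X = φ X) : D.InS M w φ' := by
  obtain ⟨g, hg, hgw, hgX⟩ := h
  exact ⟨g, hg, hgw, fun X hX => by rw [hgX X hX, he X hX]⟩

lemma InS.add (h : D.InS M w φ) (h' : D.InS M w φ') : D.InS M w (φ + φ') := by
  obtain ⟨g, hg, hgw, hgX⟩ := h
  obtain ⟨g', hg', hgw', hgX'⟩ := h'
  refine ⟨g * g', M.mul_mem hg hg', fun u => by rw [mul_mulVec, hgw', hgw], fun X hX => ?_⟩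
  rw [mul_mulVec, hgX' X hX, mulVec_add, hgX X hX, hgw, LinearMap.add_apply, map_add, LinearMap.add_apply]
  abel

lemma InS.neg (h : D.InS M w φ) : D.InS M w (-φ) := by
  obtain ⟨g, hg, hgw, hgX⟩ := h
  refine ⟨g⁻¹, M.inv_mem hg, fun u => mulVec_injective g ?_, fun X hX => mulVec_injective g ?_⟩
  · simp only [mulVec_inv, hgw]
  · simp only [mulVec_inv]
    rw [LinearMap.neg_apply, map_neg, LinearMap.neg_apply, mulVec_add, mulVec_neg, hgw, hgX X hX]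
    abel

lemma InS.sub (h : D.InS M w φ) (h' : D.InS M w φ') : D.InS M w (φ - φ') := by
  rw [sub_eq_add_neg]; exact h.add h'.neg

/-- An element acting on the second factor. -/
def Lift₂ (D : TData ι F V₁ V₂) (M : Subgroup (GL ι F)) (b : V₂ ≃ₗ[F] V₂) : Prop :=
  (∀ x y, D.f₂ (b x) (b y) = D.f₂ x y) ∧
    ∃ g ∈ M, ∀ u z, (g : Matrix ι ι F) *ᵥ D.ten u z = D.ten u (b z)

/-- An element acting on the first factor. -/
def Lift₁ (D : TData ι F V₁ V₂) (M : Subgroup (GL ι F)) (a : V₁ ≃ₗ[F] V₁) : Prop :=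
  (∀ x y, D.f₁ (a x) (a y) = D.f₁ x y) ∧
    ∃ g ∈ M, ∀ u z, (g : Matrix ι ι F) *ᵥ D.ten u z = D.ten (a u) z

lemma ctr_of_lift₂ {g : GL ι F} {b : V₂ ≃ₗ[F] V₂}
    (hiso : ∀ X Y, D.B ((g : Matrix ι ι F) *ᵥ X) ((g : Matrix ι ι F) *ᵥ Y) = D.B X Y)
    (hg : ∀ u z, (g : Matrix ι ι F) *ᵥ D.ten u z = D.ten u (b z)) (z : V₂) (X : ι → F) :
    D.ctr (b z) ((g : Matrix ι ι F) *ᵥ X) = D.ctr z X :=
  D.f₁_ext fun u => by rw [← D.B_ctr, ← D.B_ctr, ← hg, hiso]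

lemma ctr_of_lift₁ {g : GL ι F} {a : V₁ ≃ₗ[F] V₁}
    (hiso : ∀ X Y, D.B ((g : Matrix ι ι F) *ᵥ X) ((g : Matrix ι ι F) *ᵥ Y) = D.B X Y)
    (hg : ∀ u z, (g : Matrix ι ι F) *ᵥ D.ten u z = D.ten (a u) z)
    (ha : ∀ x y, D.f₁ (a x) (a y) = D.f₁ x y) (z : V₂) (X : ι → F) :
    D.ctr z ((g : Matrix ι ι F) *ᵥ X) = a (D.ctr z X) :=
  D.f₁_ext fun v => by
    obtain ⟨u, rfl⟩ := a.surjective v
    rw [ha, ← D.B_ctr, ← D.B_ctr, ← hg, hiso]

end TData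

end CfsgLib.FormTensor89
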