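import Cfsg.Agent.FormTensor89.Symp

/-!
Two symplectic factors: a non-scalar coefficient yields a long root element at two pure vectors.
-/

set_option autoImplicit false
set_option linter.unusedSectionVars false

namespace CfsgLib.FormTensor89

open Module Matrix

variable {ι : Type} [Fintype ι] [DecidableEq ι] {F : Type*} [Field F] {V₁ V₂ : Type*} [AddCommGroup V₁]
  [Module F V₁] [AddCommGroup V₂] [Module F V₂]

namespace TData

/-- The two-sided root map of `α` with adjoint `α'`. -/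
def N0 (D : TData ι F V₁ V₂) (α α' : V₁ →ₗ[F] V₁) (w z : V₂) : (ι → F) →ₗ[F] (ι → F) :=
  D.ten.flip w ∘ₗ α ∘ₗ D.ctr z + D.ten.flip z ∘ₗ α' ∘ₗ D.ctr w

@[simp] lemma N0_apply (D : TData ι F V₁ V₂) (α α' : V₁ →ₗ[F] V₁) (w z : V₂) (X : ι → F) :
    D.N0 α α' w z X = D.ten (α (D.ctr z X)) w + D.ten (α' (D.ctr w X)) z := rfl

/-- `α'` is adjoint to `α`. -/
def IsAdj (D : TData ι F V₁ V₂) (α α' : V₁ →ₗ[F] V₁) : Prop := ∀ x u, D.f₁ (α' x) u = D.f₁ x (α u)

variable {D : TData ι F V₁ V₂} {M : Subgroup (GL ι F)}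

lemma IsX.conj (hM : D.Hyp M) {α : V₁ →ₗ[F] V₁} (h : D.IsX M α) {t : V₁ ≃ₗ[F] V₁} (ht : D.Lift₁ M t) :
    D.IsX M (t.toLinearMap ∘ₗ α ∘ₗ t.symm.toLinearMap) := by
  obtain ⟨ht, g, hg, hgX⟩ := ht
  intro w z hw hz hwz
  obtain ⟨r, hr, hrw, hrX⟩ := h w z hw hz hwz
  have hgi : ∀ u y, ((g⁻¹ : GL ι F) : Matrix ι ι F) *ᵥ D.ten u y = D.ten (t.symm u) y :=
    fun u y => mulVec_injective g (by simp only [mulVec_inv, hgX, LinearEquiv.apply_symm_apply])
  have hctr : ∀ y X, D.ctr y (((g⁻¹ : GL ι F) : Matrix ι ι F) *ᵥ X) = t.symm (D.ctr y X) := fun y X => by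
    conv_rhs => rw [← mulVec_inv g X, ctr_of_lift₁ (hM.iso g hg) hgX ht, LinearEquiv.symm_apply_apply]
  refine ⟨g * r * g⁻¹, M.mul_mem (M.mul_mem hg hr) (M.inv_mem hg), fun u => ?_, fun X hX => ?_⟩
  · rw [mul_mulVec, mul_mulVec, hgi, hrw, hgX, LinearEquiv.apply_symm_apply]
  · rw [mul_mulVec, mul_mulVec, hrX _ (by rw [hctr, hX, map_zero]), mulVec_add, mulVec_inv, hgX]
    rw [LinearMap.comp_apply, hctr]; rfl

section
variable [Finite F] [Module.Finite F V₁] [Module.Finite F V₂] (hS : D.Symp M) (hM : D.Hyp M)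
  (h5 : 5 ≤ finrank F V₂)
include hS hM h5

/-- Root coefficients are radical coefficients. -/
lemma isX_of_isT {τ : V₁ →ₗ[F] V₁} (hτ : D.IsT M τ) : D.IsX M τ := by
  intro w z hw hz hwz
  have hz' := f₂_comm_zero D hwz
  obtain ⟨g₁, h₁, e₁⟩ := hτ (w + z) (hS.alt₂ _)
  obtain ⟨g₂, h₂, e₂⟩ := (hτ w hw).neg fun X => D.R_sq hw X
  obtain ⟨g₃, h₃, e₃⟩ := (hτ z hz).neg fun X => D.R_sq hz X
  refine ⟨g₁ * g₂ * g₃, M.mul_mem (M.mul_mem h₁ h₂) h₃, fun u => ?_, fun X hX => ?_⟩
  · rw [mul_mulVec, mul_mulVec, e₃, LinearMap.neg_apply, R_apply]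
    simp [D.ctr_ten, hwz, hw, e₂, e₁, f₂_add_right]
  · rw [mul_mulVec, mul_mulVec, e₃, LinearMap.neg_apply, e₂, LinearMap.neg_apply, R_apply, R_apply, e₁,
      R_apply]
    simp [D.ctr_add, hX, D.ctr_ten, hz', hz, map_add]
    module

/-- A radical coefficient gives the exact two-sided root element. -/
lemma IsX.exact_elem {α α' : V₁ →ₗ[F] V₁} (h : D.IsX M α) (hadj : D.IsAdj α α') {w t : V₂} (hw : w ≠ 0)
    (hwt : D.f₂ w t = 0) (hind : t ∉ Submodule.span F {w}) : InM M (D.N0 α α' w t) := by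
  obtain ⟨z, hzw, hzt, hz⟩ := exists_perp_avoid hS h5 w t
  have hwz := f₂_comm_zero D hzw
  have hzw' : z ∉ Submodule.span F {w} := fun hm => hz (Submodule.span_mono (by simp) hm)
  have hsum : z + t ∉ Submodule.span F {w} := fun hm => hz <| by
    have := sub_mem (Submodule.span_mono (show ({w} : Set V₂) ⊆ {w, t} by simp) hm)
      (Submodule.subset_span (show t ∈ ({w, t} : Set V₂) by simp))
    simpa using this
  obtain ⟨g, hg, hgw, hgX⟩ := h w z (hS.alt₂ w) (hS.alt₂ z) hwz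
  obtain ⟨b, ⟨hb, k, hk, hkb⟩, hbw, hbz⟩ := exists_trans₂ hS hwz
    (by rw [f₂_add_right, hwz, hwt, add_zero]) hzw' hsum
  -- the defect of `g`
  set E : (ι → F) →ₗ[F] (ι → F) := (g : Matrix ι ι F).mulVecLin - LinearMap.id - D.N0 α α' w z with hE
  have hgE : ∀ X, (g : Matrix ι ι F) *ᵥ X = X + D.N0 α α' w z X + E X := fun X => by simp [hE]
  have hEperp : ∀ X, D.ctr w X = 0 → E X = 0 := fun X hX => by simp [hE, hgX X hX, hX]
  have hctrw : ∀ X, D.ctr w ((g : Matrix ι ι F) *ᵥ X) = D.ctr w X := fun X => D.f₁_ext fun u => by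
    rw [← D.B_ctr, ← D.B_ctr, ← hgw, hM.iso g hg, hgw]
  have hEmem : ∀ X, E X ∈ D.memb w := fun X => D.mem_memb_of_ctr hw fun y hy => D.f₁_nondeg _ fun u => by
    have h1 := hM.iso g hg X (D.ten u y)
    rw [hgX (D.ten u y) (by rw [D.ctr_ten, f₂_comm_zero D hy, zero_smul]), D.B_add_right, D.B_ctr, D.B_ctr, D.B_ctr, hctrw,
      LinearMap.comp_apply, D.ctr_ten, map_smul, smul_right₁ hS] at h1
    simp only [hgE, map_add, N0_apply, D.ctr_ten, f₂_comm_zero D hy, hy, zero_smul, zero_add,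
      D.f₁_add_left, D.f₁_smul_left, show ∀ x u, D.f₁ (α' x) u = D.f₁ x (α u) from hadj] at h1
    linear_combination h1 - (D.f₁ (D.ctr w X) (α u)) * skew₂ hS y z
  have hki : ∀ u, ((k⁻¹ : GL ι F) : Matrix ι ι F) *ᵥ D.ten u w = D.ten u w :=
    fun u => mulVec_injective k (by simp only [mulVec_inv, hkb, hbw])
  have hconj : ∀ X, ((k * g * k⁻¹ : GL ι F) : Matrix ι ι F) *ᵥ X
      = (g : Matrix ι ι F) *ᵥ X + D.N0 α α' w t X := by
    intro X
    obtain ⟨Y, rfl⟩ : ∃ Y, (k : Matrix ι ι F) *ᵥ Y = X := ⟨_, mulVec_inv k X⟩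
    have hY : ∀ y, D.ctr (b y) ((k : Matrix ι ι F) *ᵥ Y) = D.ctr y Y :=
      fun y => ctr_of_lift₂ (hM.iso k hk) hkb y Y
    have hYw := hY w
    rw [hbw] at hYw
    have hEY : E ((k : Matrix ι ι F) *ᵥ Y) = E Y := by
      rw [← sub_eq_zero, ← map_sub]
      exact hEperp _ (by rw [map_sub, hYw, sub_self])
    obtain ⟨v, hv⟩ := D.mem_memb.1 (hEmem Y)
    have hYz := hY z
    rw [hbz, D.ctr_add] at hYz
    rw [mul_mulVec, mul_mulVec, inv_mulVec, hgE Y, hgE, hEY, mulVec_add, mulVec_add, ← hv, hkb, hbw]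
    simp only [N0_apply, mulVec_add, hkb, hbw, hbz, hYw, ← hYz, map_add, LinearMap.add_apply]
    abel
  refine ⟨k * g * k⁻¹ * g⁻¹, M.mul_mem (M.mul_mem (M.mul_mem hk hg) (M.inv_mem hk)) (M.inv_mem hg), fun X => ?_⟩
  obtain ⟨Y, rfl⟩ : ∃ Y, (g : Matrix ι ι F) *ᵥ Y = X := ⟨_, mulVec_inv g X⟩
  rw [mul_mulVec, inv_mulVec, hconj]
  congr 1
  obtain ⟨v, hv⟩ := D.mem_memb.1 (hEmem Y)
  simp [hgE, ← hv, D.ctr_ten, hwt, hS.alt₂ w, f₂_comm_zero D hwz, hzt]

/-- Two radical coefficients at suitable planes multiply. -/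
lemma isX_mul_of_exact {θ θ' : V₁ →ₗ[F] V₁} (h : D.IsX M θ) (hθ : D.IsAdj θ θ) (h' : D.IsX M θ')
    (hθ' : D.IsAdj θ' θ') : D.IsX M (θ ∘ₗ θ') := by
  have : Nontrivial V₂ := Module.nontrivial_of_finrank_pos (R := F) (by omega)
  obtain ⟨w, hw⟩ := exists_ne (0 : V₂)
  obtain ⟨y, hyw, -, hy⟩ := exists_perp_avoid hS h5 w w
  have hyind : y ∉ Submodule.span F {w} := fun hm => hy (by simpa using hm)
  obtain ⟨z, hzw, hzy, hz⟩ := exists_perp_avoid hS h5 w y
  obtain ⟨x, hzx, hx⟩ := exists_pair hS hz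
  have hwy := f₂_comm_zero D hyw
  have hwx : D.f₂ w x = 0 := hx w (by simp)
  have hyx : D.f₂ y x = 0 := hx y (by simp)
  have hzind : z ∉ Submodule.span F {w} := fun hm => hz (Submodule.span_mono (by simp) hm)
  have hx0 : x ≠ 0 := by rintro rfl; rw [f₂_zero_right] at hzx; exact zero_ne_one hzx
  have hyx' : y ∉ Submodule.span F {x} := fun hm => by
    obtain ⟨c, rfl⟩ := Submodule.mem_span_singleton.1 hm
    have hc : c = 0 := by
      have h0 := f₂_comm_zero D hzy
      rw [D.f₂_smul_left, skew₂ hS, hzx] at h0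
      simpa using h0
    exact hyind (by rw [hc, zero_smul]; exact zero_mem _)
  obtain ⟨g, hg, hgX⟩ := h.exact_elem hS hM h5 hθ hw (f₂_comm_zero D hzw) hzind
  obtain ⟨g', hg', hgX'⟩ := h'.exact_elem hS hM h5 hθ' hx0 (f₂_comm_zero D hyx) hyx'
  refine (isX_of_inS hM (α := θ ∘ₗ θ') hw (hS.alt₂ w) (hS.alt₂ y) hwy hyind ?_)
  have hgi : ∀ X, ((g⁻¹ : GL ι F) : Matrix ι ι F) *ᵥ X = X - D.N0 θ θ w z X := fun X =>
    mulVec_injective g <| by
      dsimp only
      rw [mulVec_inv, hgX]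
      simp only [N0_apply, map_sub, map_add, D.ctr_ten, hzw, f₂_comm_zero D hzw,
        hS.alt₂, zero_smul, map_zero, LinearMap.zero_apply, sub_zero, add_zero, sub_add_cancel]
  have hgi' : ∀ X, ((g'⁻¹ : GL ι F) : Matrix ι ι F) *ᵥ X = X - D.N0 θ' θ' x y X := fun X =>
    mulVec_injective g' <| by
      dsimp only
      rw [mulVec_inv, hgX']
      simp only [N0_apply, map_sub, map_add, D.ctr_ten, hyx, f₂_comm_zero D hyx,
        hS.alt₂, zero_smul, map_zero, LinearMap.zero_apply, sub_zero, add_zero, sub_add_cancel]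
  -- the commutator
  refine ⟨g' * g * g'⁻¹ * g⁻¹, M.mul_mem (M.mul_mem (M.mul_mem hg' hg) (M.inv_mem hg')) (M.inv_mem hg),
    fun u => ?_, fun X hX => ?_⟩
  · rw [mul_mulVec, mul_mulVec, mul_mulVec]
    have e1 : ((g⁻¹ : GL ι F) : Matrix ι ι F) *ᵥ D.ten u w = D.ten u w := by
      rw [hgi]
      simp [D.ctr_ten, hS.alt₂, f₂_comm_zero D hzw]
    have e2 : ((g'⁻¹ : GL ι F) : Matrix ι ι F) *ᵥ D.ten u w = D.ten u w := by
      rw [hgi']
      simp [D.ctr_ten, hwy, hwx]
    rw [e1, e2]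
    simp [hgX, hgX', D.ctr_ten, hS.alt₂, f₂_comm_zero D hzw, hwy, hwx]
  · rw [mul_mulVec, mul_mulVec, mul_mulVec, hgi, hgi', hgX, hgX']
    have hxz : D.f₂ x z = -1 := by rw [skew₂ hS, hzx]
    have hxw := f₂_comm_zero D hwx
    have hxy := f₂_comm_zero D hyx
    have hyz := f₂_comm_zero D hzy
    simp [D.ctr_ten, hX, hzw, f₂_comm_zero D hzw, hwx, hwy, hxy, hyx, hyw, hzy, hxz, hxw, hyz, hS.alt₂, hzx,
      map_add, map_sub]
    module

lemma isAdj_θ (a b : V₁) : D.IsAdj (D.θ a b) (D.θ a b) := fun x u => by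
  simp only [θ_apply, sub_eq_add_neg, ← neg_smul, D.f₁_add_left, D.f₁_add_right, D.f₁_smul_left,
    smul_right₁ hS]
  rw [skew₁ hS a u, skew₁ hS b u]
  ring

lemma isAdj_rk (a b : V₁) : D.IsAdj (D.rk a b) (-D.rk b a) := fun x u => by
  simp only [LinearMap.neg_apply, rk_apply, ← neg_smul, D.f₁_smul_left, smul_right₁ hS]
  rw [skew₁ hS b u]
  ring

/-- A vector orthogonal to `a` pairing to one with `b`. -/
lemma exists_pair₁ {a b : V₁} (h : b ∉ Submodule.span F {a}) : ∃ c, D.f₁ c b = 1 ∧ D.f₁ c a = 0 := by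
  by_contra! hne
  have hker : LinearMap.ker (D.lf₁ a) ≤ LinearMap.ker (D.lf₁ b) := fun c hc => by
    by_contra hcb
    refine hne ((D.f₁ c b)⁻¹ • c) ?_ ?_
    · rw [D.f₁_smul_left]; exact inv_mul_cancel₀ hcb
    · rw [D.f₁_smul_left, show D.f₁ c a = 0 from hc, mul_zero]
  by_cases ha : ∀ x, D.f₁ x a = 0
  · have hb : ∀ x, D.f₁ x b = 0 := fun x => hker (ha x)
    rw [D.f₁_nondeg' b hb] at h
    exact h (zero_mem _)
  · push Not at ha
    obtain ⟨v, hv⟩ := ha
    refine h (Submodule.mem_span_singleton.2 ⟨D.f₁ v b / D.f₁ v a, (sub_eq_zero.1 (D.f₁_nondeg' _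
      fun x => ?_)).symm⟩)
    have h1 : D.f₁ (x - (D.f₁ x a / D.f₁ v a) • v) a = 0 := by
      rw [sub_eq_add_neg, ← neg_smul, D.f₁_add_left, D.f₁_smul_left]; field_simp; ring
    have h2 : D.f₁ (x - (D.f₁ x a / D.f₁ v a) • v) b = 0 := hker h1
    rw [sub_eq_add_neg, ← neg_smul, D.f₁_add_left, D.f₁_smul_left] at h2
    rw [sub_eq_add_neg, ← neg_smul, D.f₁_add_right, smul_right₁ hS]
    linear_combination h2

/-- A coefficient of a totally singular plane gives the rank one coefficient. -/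
lemma isX_rk_of_θ {a b : V₁} (hab : D.f₁ a b = 0) (hb : b ∉ Submodule.span F {a})
    (h : D.IsX M (D.θ a b)) : D.IsX M (D.rk a a) := by
  obtain ⟨c, hcb, hca⟩ := exists_pair₁ hS hM h5 hb
  obtain ⟨t, ht, htb, htf⟩ := exists_move₁ hS (a := b) (a' := c)
    (by rw [skew₁ hS, hcb]; exact neg_ne_zero.2 one_ne_zero)
  have hta : t a = a := htf a (by rw [skew₁ hS, hca, neg_zero, hab])
  have h' : D.IsX M (D.θ c a) := fun w z hw hz hwz => by
    refine (((h.conj hM ht).smul (-1)) w z hw hz hwz).congr fun X _ => ?_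
    have e : ∀ x y, D.f₁ (t.symm x) y = D.f₁ x (t y) := fun x y => by
      conv_rhs => rw [← t.apply_symm_apply x, ht.1]
    simp [θ_apply, e, map_sub, map_smul, hta, htb]
  have := isX_mul_of_exact hS hM h5 h (isAdj_θ hS hM h5 a b) h' (isAdj_θ hS hM h5 c a)
  refine fun w z hw hz hwz => (this w z hw hz hwz).congr fun X _ => ?_
  simp [θ_apply, hab, hS.alt₁, hca, hcb, smul_smul, D.f₁_smul_left, sub_eq_add_neg, D.f₁_add_left, ← neg_smul]

/-- The defect of conjugating by a transvection. -/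
lemma isX_diff {α : V₁ →ₗ[F] V₁} (h : D.IsX M α) (a : V₁) (k : F) :
    D.IsX M (k • ((D.lf₁ a ∘ₗ α).smulRight a - (D.lf₁ a).smulRight (α a)) - (k * k * D.f₁ (α a) a) • D.rk a a) := by
  obtain ⟨t, ht, htu⟩ := exists_t₁ hS a k
  refine fun w z hw hz hwz => (((h.conj hM ht).sub h) w z hw hz hwz).congr fun X _ => ?_
  have e : ∀ x, t.symm x = x + (-(k * D.f₁ x a)) • a := fun x => t.injective (by
    rw [t.apply_symm_apply, htu, D.f₁_add_left, D.f₁_smul_left, hS.alt₁]
    module)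
  simp only [LinearMap.comp_apply, LinearMap.sub_apply, LinearMap.smul_apply, LinearEquiv.coe_coe, e, htu,
    map_add, map_smul, D.f₁_add_left, D.f₁_smul_left, LinearMap.smulRight_apply, lf₁_apply, rk_apply]
  module

/-- A non-scalar coefficient gives a rank one radical coefficient. -/
theorem exists_isX_rk (h1 : 2 ≤ finrank F V₁) (hq : 3 ≤ Nat.card F ∨ 3 ≤ finrank F V₁)
    (halt : ∀ τ, D.IsT M τ → ∀ u, D.f₁ u (τ u) = 0) (hns : ¬ D.OnlyScalars M) :
    ∃ a, a ≠ 0 ∧ D.IsX M (D.rk a a) := by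
  have zero_case : ∀ α, D.IsX M α → (∀ a, D.f₁ (α a) a = 0) → (¬∃ c : F, ∀ u, α u = c • u) →
      ∃ a, a ≠ 0 ∧ D.IsX M (D.rk a a) := by
    intro α hα hq0 hne
    have hpol : ∀ x y, D.f₁ (α x) y = D.f₁ x (α y) := fun x y => by
      have h := hq0 (x + y)
      rw [map_add, D.f₁_add_left, D.f₁_add_right, D.f₁_add_right, hq0, hq0] at h
      rw [skew₁ hS x]
      linear_combination h
    obtain ⟨a, ha⟩ : ∃ a, α a ∉ Submodule.span F {a} := by
      by_contra! h; exact hne (scalar_of_eigen hS h)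
    refine ⟨a, fun h0 => ha (by rw [h0, map_zero]; exact zero_mem _),
      isX_rk_of_θ hS hM h5 (by rw [skew₁ hS, hq0, neg_zero]) ha ?_⟩
    refine fun w z hw hz hwz => ((isX_diff hS hM h5 hα a 1) w z hw hz hwz).congr fun X _ => ?_
    simp [θ_apply, hq0 a, hpol]
  by_cases hT : ∀ τ, D.IsT M τ → ∃ c : F, ∀ u, τ u = c • u
  swap
  · push Not at hT
    obtain ⟨τ, hτ, hne⟩ := hT
    exact zero_case τ (isX_of_isT hS hM h5 hτ) (fun a => by rw [skew₁ hS, halt τ hτ, neg_zero])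
      (fun ⟨c, hc⟩ => (hne c).elim fun u hu => hu (hc u))
  obtain ⟨α, hα, hne⟩ : ∃ α, D.IsX M α ∧ ¬∃ c : F, ∀ u, α u = c • u := by
    by_contra! h
    exact hns ⟨hT, fun α hα => by
      by_contra hc; exact hc (h α hα)⟩
  by_cases hq0 : ∀ a, D.f₁ (α a) a = 0
  · exact zero_case α hα hq0 hne
  push Not at hq0
  obtain ⟨a₁, ha₁⟩ := hq0
  by_cases hk : ∃ k : F, k ≠ 0 ∧ k ≠ 1
  · obtain ⟨k, hk0, hk1⟩ := hk
    refine ⟨a₁, fun h0 => ha₁ (by rw [h0, map_zero]; simpa using D.f₁_smul_left 0 0 0), ?_⟩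
    set μ := (k * k - k) * D.f₁ (α a₁) a₁
    have hμ : μ ≠ 0 := mul_ne_zero (by
      rw [sub_ne_zero]; intro h
      exact hk1 (mul_right_cancel₀ hk0 (by rw [h, one_mul]))) ha₁
    refine fun w z hw hz hwz => (((((isX_diff hS hM h5 hα a₁ 1).smul k).sub (isX_diff hS hM h5 hα a₁ k)).smul μ⁻¹)
      w z hw hz hwz).congr fun X _ => ?_
    simp only [μ] at hμ ⊢
    simp only [LinearMap.comp_apply, LinearMap.smul_apply, LinearMap.sub_apply, rk_apply]
    match_scalars
    all_goals field_simp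
    all_goals ring
  -- two elements
  push Not at hk
  have h01 : ∀ x : F, x ≠ 0 → x = 1 := hk
  have h2 : (2 : F) = 0 := by
    by_contra h
    exact one_ne_zero (show (1 : F) = 0 by linear_combination h01 2 h)
  have hn1 : 3 ≤ finrank F V₁ := hq.resolve_left fun hc => by
    classical
    have := Fintype.ofFinite F
    have hsub : (Finset.univ : Finset F) ⊆ {0, 1} := fun x _ => by
      by_cases hx : x = 0 <;> simp [hx, h01 x]
    have h3 := (Finset.card_le_card hsub).trans Finset.card_le_two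
    rw [Finset.card_univ, ← Nat.card_eq_fintype_card] at h3
    omega
  obtain ⟨α', hadj⟩ : ∃ α', D.IsAdj α α' := by
    let Φ : V₁ →ₗ[F] Module.Dual F V₁ :=
      { toFun := fun x =>
          { toFun := fun v => D.f₁ x v
            map_add' := D.f₁_add_right x
            map_smul' := fun c v => smul_right₁ hS c x v }
        map_add' := fun x y => LinearMap.ext fun v => D.f₁_add_left x y v
        map_smul' := fun c x => LinearMap.ext fun v => D.f₁_smul_left c x v }
    have hinj : Function.Injective Φ := LinearMap.ker_eq_bot.1 <| LinearMap.ker_eq_bot'.2 fun x hx =>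
      D.f₁_nondeg x fun v => LinearMap.congr_fun hx v
    let E := LinearEquiv.ofBijective Φ ⟨hinj, (LinearMap.injective_iff_surjective_of_finrank_eq_finrank
      (Subspace.dual_finrank_eq (K := F) (V := V₁)).symm).1 hinj⟩
    refine ⟨E.symm.toLinearMap ∘ₗ α.dualMap ∘ₗ Φ, fun x u => ?_⟩
    change (E (E.symm (α.dualMap (Φ x)))) u = _
    rw [E.apply_symm_apply]
    rfl
  -- the sum with the adjoint is scalar
  obtain ⟨s, hs⟩ : ∃ s : F, ∀ u, α u + α' u = s • u := by
    have : Nontrivial V₂ := Module.nontrivial_of_finrank_pos (R := F) (by omega)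
    obtain ⟨w, hw⟩ := exists_ne (0 : V₂)
    obtain ⟨z, hzw, -, hz⟩ := exists_perp_avoid hS h5 w w
    have hzind : z ∉ Submodule.span F {w} := fun hm => hz (by simpa using hm)
    obtain ⟨y, hzy, hy⟩ := exists_pair hS hzind
    have hwy : D.f₂ w y = 0 := hy w rfl
    have hyw := f₂_comm_zero D hwy
    have hwz := f₂_comm_zero D hzw
    have hyind : y ∉ Submodule.span F {w} := fun hm => by
      obtain ⟨c, rfl⟩ := Submodule.mem_span_singleton.1 hm
      rw [f₂_smul_right, hzw, mul_zero] at hzy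
      exact zero_ne_one hzy
    obtain ⟨g, hg, hgX⟩ := hα.exact_elem hS hM h5 hadj hw hwz hzind
    obtain ⟨e, he, heX⟩ := (isX_id hM).exact_elem hS hM h5 (α' := LinearMap.id)
      (fun x u => rfl) hw hwy hyind
    have hyz : D.f₂ y z = -1 := by rw [skew₂ hS, hzy]
    have hr : InM M (D.R (-(α + α')) w) := by
      refine ⟨g * e * g⁻¹ * e⁻¹, M.mul_mem (M.mul_mem (M.mul_mem hg he) (M.inv_mem hg)) (M.inv_mem he),
        fun X => ?_⟩
      obtain ⟨Y, rfl⟩ : ∃ Y, ((e * g : GL ι F) : Matrix ι ι F) *ᵥ Y = X := ⟨_, mulVec_inv (e * g) X⟩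
      rw [mul_mulVec e g, mul_mulVec, mul_mulVec, mul_mulVec, inv_mulVec, inv_mulVec, heX, hgX, hgX, heX]
      simp [D.ctr_ten, hS.alt₂, hwz, hzw, hwy, hyw, hzy, hyz, map_add]
      module
    obtain ⟨c, hc⟩ := hT _ (isT_of_inM hM hw (hS.alt₂ w) hr)
    refine ⟨-c, fun u => ?_⟩
    rw [neg_smul, ← hc u]
    simp
  have hδ : ∀ a, D.f₁ (α a) a = 0 → D.IsX M (D.θ a (α a) + s • D.rk a a) := fun a ha => by
    refine fun w z hw hz hwz => ((isX_diff hS hM h5 hα a 1) w z hw hz hwz).congr fun X _ => ?_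
    have e : ∀ u, D.f₁ (α u) a = s * D.f₁ u a + D.f₁ u (α a) := fun u => by
      have h3 := congrArg (fun v => D.f₁ v u) (hs a)
      simp only [D.f₁_add_left, D.f₁_smul_left, hadj a u] at h3
      rw [skew₁ hS u a, skew₁ hS (α u) a, skew₁ hS u (α a)]
      linear_combination h3 + (s * D.f₁ a u - D.f₁ a (α u)) * h2
    simp [θ_apply, ha, e]
    module
  by_cases hs0 : s = 0
  · -- self-adjoint
    subst hs0
    let q : V₁ →ₗ[F] F :=
      { toFun := fun u => D.f₁ (α u) u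
        map_add' := fun x y => by
          have h3 := congrArg (fun v => D.f₁ v x) (hs y)
          simp only [D.f₁_add_left, D.f₁_smul_left, zero_mul, hadj y x] at h3
          rw [map_add, D.f₁_add_left, D.f₁_add_right, D.f₁_add_right]
          rw [skew₁ hS y (α x)] at h3
          linear_combination h3 + (D.f₁ (α x) y) * h2
        map_smul' := fun c x => by
          rw [map_smul, D.f₁_smul_left, smul_right₁ hS, RingHom.id_apply, smul_eq_mul]
          rcases eq_or_ne c 0 with rfl | hc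
          · simp
          · rw [h01 c hc]; simp }
    by_cases hex : ∃ a, q a = 0 ∧ α a ∉ Submodule.span F {a}
    · obtain ⟨a, ha, hb⟩ := hex
      refine ⟨a, fun h0 => hb (by rw [h0, map_zero]; exact zero_mem _),
        isX_rk_of_θ hS hM h5 (by rw [skew₁ hS, show D.f₁ (α a) a = 0 from ha, neg_zero]) hb ?_⟩
      exact fun w z hw hz hwz => ((hδ a ha) w z hw hz hwz).congr fun X _ => by simp
    · push Not at hex
      -- a scalar on the kernel of the functional
      obtain ⟨l, hl⟩ : ∃ l : F, ∀ u, q u = 0 → α u = l • u := by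
        by_cases hK : ∀ u, q u = 0 → u = 0
        · exact ⟨0, fun u hu => by rw [hK u hu]; simp⟩
        push Not at hK
        obtain ⟨v, hv, hv0⟩ := hK
        obtain ⟨l, hl⟩ := Submodule.mem_span_singleton.1 (hex v hv)
        refine ⟨l, fun u hu => ?_⟩
        by_cases hu' : u ∈ Submodule.span F {v}
        · obtain ⟨k, rfl⟩ := Submodule.mem_span_singleton.1 hu'
          rw [map_smul, ← hl, smul_comm]
        · obtain ⟨m, hm⟩ := Submodule.mem_span_singleton.1 (hex u hu)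
          obtain ⟨p, hp⟩ := Submodule.mem_span_singleton.1 (hex (u + v) (by rw [map_add, hu, hv, add_zero]))
          rw [map_add, ← hm, ← hl, smul_add] at hp
          have e1 : (p - m) • u = (l - p) • v := by
            rw [sub_smul, sub_smul, sub_eq_sub_iff_add_eq_add, hp, add_comm]
          have hpm : p = m := by
            by_contra hne
            exact hu' (Submodule.mem_span_singleton.2 ⟨(p - m)⁻¹ * (l - p), by
              rw [← smul_smul, ← e1, inv_smul_smul₀ (sub_ne_zero.2 hne)]⟩)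
          rw [hpm, sub_self, zero_smul, eq_comm, smul_eq_zero, sub_eq_zero] at e1
          rw [← hm, e1.resolve_right hv0]
      have hqa : q a₁ = 1 := h01 _ ha₁
      set v := α a₁ - l • a₁
      have hv : D.f₁ v a₁ = 1 := by
        simp only [v, sub_eq_add_neg, ← neg_smul, D.f₁_add_left, D.f₁_smul_left, hS.alt₁, mul_zero, add_zero]
        exact hqa
      refine ⟨v, fun h0 => zero_ne_one (by rw [← hv, h0]; simpa using (D.f₁_smul_left 0 0 a₁).symm), ?_⟩
      refine fun w z hw hz hwz => (((hα.sub ((isX_id hM).smul l))) w z hw hz hwz).congr fun X _ => ?_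
      have key : ∀ u, α u - l • u = q u • v := fun u => by
        have h3 := hl (u - q u • a₁) (by rw [map_sub, map_smul, hqa, smul_eq_mul, mul_one, sub_self])
        rw [map_sub, map_smul] at h3
        simp only [v]
        linear_combination (norm := module) h3
      have hsym : ∀ u, D.f₁ u v = q u := fun u => by
        have h3 := congrArg (fun x => D.f₁ x a₁) (key u)
        rw [D.f₁_smul_left, hv, mul_one] at h3
        have h4 := congrArg (fun x => D.f₁ x u) (hs a₁)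
        simp only [sub_eq_add_neg, ← neg_smul, D.f₁_add_left, D.f₁_smul_left, zero_mul, hadj a₁ u] at h3 h4
        simp only [v, sub_eq_add_neg, ← neg_smul, D.f₁_add_right, smul_right₁ hS]
        rw [skew₁ hS a₁ (α u)] at h4
        rw [skew₁ hS u (α a₁)]
        linear_combination h3 - h4 - D.f₁ (α u) a₁ * h2
      simp [hsym, ← key]
  · -- not self-adjoint
    have hs1 : s = 1 := h01 s hs0
    obtain ⟨a, ha0, ha⟩ : ∃ a, a ≠ 0 ∧ D.f₁ (α a) a = 0 := by
      have : Nontrivial V₁ := Module.nontrivial_of_finrank_pos (R := F) (by omega)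
      obtain ⟨e₁, he₁⟩ := exists_ne (0 : V₁)
      obtain ⟨e₂, he₂, he₂'⟩ : ∃ e₂, D.f₁ e₂ e₁ = 0 ∧ e₂ ∉ Submodule.span F {e₁} := by
        by_contra! h
        have h3 := Submodule.finrank_mono (show LinearMap.ker (D.lf₁ e₁) ≤ Submodule.span F {e₁} from
          fun x hx => h x hx)
        have h4 := LinearMap.finrank_range_add_finrank_ker (D.lf₁ e₁)
        have h5' : finrank F (LinearMap.range (D.lf₁ e₁)) ≤ 1 :=
          (Submodule.finrank_le _).trans (Module.finrank_self F).le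
        rw [finrank_span_singleton he₁] at h3
        omega
      by_cases h3 : D.f₁ (α e₁) e₁ = 0
      · exact ⟨e₁, he₁, h3⟩
      by_cases h4 : D.f₁ (α e₂) e₂ = 0
      · exact ⟨e₂, fun h0 => he₂' (h0 ▸ zero_mem _), h4⟩
      refine ⟨e₁ + e₂, fun h0 => he₂' (Submodule.mem_span_singleton.2 ⟨-1, by
        rw [neg_one_smul]; exact (eq_neg_of_add_eq_zero_right h0).symm⟩), ?_⟩
      have h5' := congrArg (fun x => D.f₁ x e₂) (hs e₁)
      simp only [D.f₁_add_left, D.f₁_smul_left, hadj e₁ e₂] at h5'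
      rw [skew₁ hS e₁ (α e₂), skew₁ hS e₁ e₂, he₂] at h5'
      rw [map_add, D.f₁_add_left, D.f₁_add_right, D.f₁_add_right, h01 _ h3, h01 _ h4]
      linear_combination h5' + (1 + D.f₁ (α e₂) e₁) * h2
    have hd := hδ a ha
    rw [hs1, one_smul] at hd
    by_cases hb : α a ∈ Submodule.span F {a}
    · obtain ⟨k, hk⟩ := Submodule.mem_span_singleton.1 hb
      refine ⟨a, ha0, fun w z hw hz hwz => (hd w z hw hz hwz).congr fun X _ => ?_⟩
      simp [θ_apply, ← hk, smul_right₁ hS, smul_smul, mul_comm]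
    · obtain ⟨c, hcb, hca⟩ := exists_pair₁ hS hM h5 hb
      obtain ⟨t, ht, htb, htf⟩ := exists_move₁ hS (a := α a) (a' := c)
        (by rw [skew₁ hS, hcb]; exact neg_ne_zero.2 one_ne_zero)
      have hab : D.f₁ a (α a) = 0 := by rw [skew₁ hS, ha, neg_zero]
      have hac : D.f₁ a c = 0 := by rw [skew₁ hS, hca, neg_zero]
      have hta : t a = a := htf a (by rw [hac, hab])
      refine ⟨a, ha0, isX_rk_of_θ hS hM h5 (b := c - α a) (by
        rw [sub_eq_add_neg, ← neg_one_smul F (α a), D.f₁_add_right, smul_right₁ hS, hac, hab, mul_zero,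
          add_zero]) (fun hm => ?_) ?_⟩
      · obtain ⟨k, hk⟩ := Submodule.mem_span_singleton.1 hm
        have h6 := congrArg (fun x => D.f₁ x (α a)) hk
        simp only [D.f₁_smul_left, hab, sub_eq_add_neg, D.f₁_add_left, hcb] at h6
        rw [← neg_one_smul F (α a), D.f₁_smul_left, hS.alt₁, mul_zero] at h6
        simp at h6
      · refine fun w z hw hz hwz => (((hd.conj hM ht).sub hd) w z hw hz hwz).congr fun X _ => ?_
        have e : ∀ x y, D.f₁ (t.symm x) y = D.f₁ x (t y) := fun x y => by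
          conv_rhs => rw [← t.apply_symm_apply x, ht.1]
        have hsub : ∀ x y y' : V₁, D.f₁ x (y - y') = D.f₁ x y - D.f₁ x y' := fun x y y' => by
          rw [eq_sub_iff_add_eq, ← D.f₁_add_right, sub_add_cancel]
        simp [θ_apply, e, map_sub, map_smul, hta, htb, hsub]
        module

end

end TData

end CfsgLib.FormTensor89
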