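import Cfsg.Agent.FormTensor89.Basic
import Cfsg.Agent.Aschbacher.Tensor
import Cfsg.Agent.OrthGeo.TensorThree
import Cfsg.Agent.Eq.Def_GeometricClasses

/-!
The tensor data of a change of basis, and its stabiliser.
-/

set_option autoImplicit false
set_option linter.unusedSectionVars false

namespace CfsgLib.FormTensor89

open Module Matrix CfsgLib.OrthGeo
open scoped Kronecker

variable {ι : Type} [Fintype ι] [DecidableEq ι] {F : Type*} [Field F] {n₁ n₂ : ℕ}

/-- The image of a pure tensor. -/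
noncomputable def tenLin (e : ι ≃ Fin n₁ × Fin n₂) (P : GL ι F) :
    (Fin n₁ → F) →ₗ[F] (Fin n₂ → F) →ₗ[F] (ι → F) :=
  LinearMap.mk₂ F (fun u z => (P : Matrix ι ι F) *ᵥ (pureTen u z ∘ e))
    (fun u u' z => by rw [← mulVec_add]; congr 1; funext p; simp [pureTen, add_mul])
    (fun c u z => by rw [← mulVec_smul]; congr 1; funext p; simp [pureTen, mul_assoc])
    (fun u z z' => by rw [← mulVec_add]; congr 1; funext p; simp [pureTen, mul_add])
    (fun c u z => by rw [← mulVec_smul]; congr 1; funext p; simp [pureTen, mul_left_comm])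

lemma tenLin_apply (e : ι ≃ Fin n₁ × Fin n₂) (P : GL ι F) (u : Fin n₁ → F) (z : Fin n₂ → F) :
    tenLin e P u z = (P : Matrix ι ι F) *ᵥ (pureTen u z ∘ e) := rfl

lemma tenLin_comm (e : ι ≃ Fin n₁ × Fin n₂) (P : GL ι F) (u : Fin n₁ → F) (z : Fin n₂ → F) :
    tenLin (e.trans (Equiv.prodComm _ _)) P z u = tenLin e P u z := by
  rw [tenLin_apply, tenLin_apply]
  congr 1
  funext p
  simp [pureTen, mul_comm]

/-- The coordinates in the tensor basis. -/
noncomputable def coord (e : ι ≃ Fin n₁ × Fin n₂) (P : GL ι F) (j : Fin n₂) : (ι → F) →ₗ[F] (Fin n₁ → F) where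
  toFun X i := (((P⁻¹ : GL ι F) : Matrix ι ι F) *ᵥ X) (e.symm (i, j))
  map_add' X Y := by funext i; simp [mulVec_add]
  map_smul' c X := by funext i; simp [mulVec_smul]

lemma coord_tenLin (e : ι ≃ Fin n₁ × Fin n₂) (P : GL ι F) (j : Fin n₂) (u : Fin n₁ → F) (z : Fin n₂ → F) :
    coord e P j (tenLin e P u z) = z j • u := by
  funext i
  change (((P⁻¹ : GL ι F) : Matrix ι ι F) *ᵥ ((P : Matrix ι ι F) *ᵥ (pureTen u z ∘ e))) (e.symm (i, j)) = _
  rw [inv_mulVec, Function.comp_apply, Equiv.apply_symm_apply]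
  simp [pureTen, mul_comm]

lemma tenLin_span (e : ι ≃ Fin n₁ × Fin n₂) (P : GL ι F) :
    Submodule.span F {X | ∃ u z, tenLin e P u z = X} = ⊤ := by
  refine eq_top_iff.2 fun X _ => ?_
  rw [← mulVec_inv P X, pi_eq_sum_univ' (((P⁻¹ : GL ι F) : Matrix ι ι F) *ᵥ X), mulVec_sum]
  refine Submodule.sum_mem _ fun i _ => ?_
  rw [mulVec_smul]
  refine Submodule.smul_mem _ _ (Submodule.subset_span ⟨Pi.single (e i).1 1, Pi.single (e i).2 1, ?_⟩)
  rw [tenLin_apply]
  congr 1
  funext p
  simp only [Function.comp_apply, pureTen, Pi.single_apply]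
  by_cases hp : p = i
  · subst hp; simp
  · have hne : ¬((e p).1 = (e i).1 ∧ (e p).2 = (e i).2) := fun h => hp (e.injective (Prod.ext h.1 h.2))
    simp only [hp, if_false]
    rw [not_and_or] at hne
    rcases hne with h | h <;> simp [h]

/-- The properties of a factor. -/
structure IsFactor {κ : Type} (σ : F →+* F) (f : (κ → F) → (κ → F) → F) : Prop where
  add_left : ∀ x y v, f (x + y) v = f x v + f y v
  smul_left : ∀ (c : F) x v, f (c • x) v = c * f x v
  add_right : ∀ v x y, f v (x + y) = f v x + f v y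
  smul_right : ∀ (c : F) v x, f v (c • x) = σ c * f v x
  nondeg : ∀ x, (∀ v, f x v = 0) → x = 0
  nondeg' : ∀ v, (∀ x, f x v = 0) → v = 0

/-- A left linear map as a linear map. -/
def IsFactor.left {κ : Type} {σ : F →+* F} {f : (κ → F) → (κ → F) → F} (hf : IsFactor σ f) (v : κ → F) :
    (κ → F) →ₗ[F] F where
  toFun x := f x v
  map_add' x y := hf.add_left x y v
  map_smul' c x := hf.smul_left c x v

lemma IsFactor.expand_left {κ : Type} [Fintype κ] [DecidableEq κ] {σ : F →+* F}
    {f : (κ → F) → (κ → F) → F} (hf : IsFactor σ f) (x v : κ → F) :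
    f x v = ∑ j, x j * f (Pi.single j 1) v := by
  conv_lhs => rw [show f x v = hf.left v x from rfl, pi_eq_sum_univ' x, map_sum]
  exact Finset.sum_congr rfl fun j _ => by rw [map_smul, smul_eq_mul]; rfl

/-- The tensor data of a form that is the tensor product of two forms on pure tensors. -/
noncomputable def mkData (e : ι ≃ Fin n₁ × Fin n₂) (P : GL ι F) (σ : F →+* F) (hσ : ∀ a, σ (σ a) = a)
    (s : F) (hs : s ≠ 0) (B : (ι → F) → (ι → F) → F) {f₁ : (Fin n₁ → F) → (Fin n₁ → F) → F}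
    {f₂ : (Fin n₂ → F) → (Fin n₂ → F) → F} (hf₁ : IsFactor σ f₁) (hf₂ : IsFactor σ f₂)
    (hswap : ∀ x y, f₂ x y = s * σ (f₂ y x))
    (hBl : ∀ X Y Z, B (X + Y) Z = B X Z + B Y Z) (hBs : ∀ (c : F) X Z, B (c • X) Z = c * B X Z)
    (hBr : ∀ X Y Z, B X (Y + Z) = B X Y + B X Z)
    (hB : ∀ u z u' z', B (tenLin e P u z) (tenLin e P u' z') = f₁ u u' * f₂ z z') :
    TData ι F (Fin n₁ → F) (Fin n₂ → F) where
  σ := σ
  σσ := hσ
  s := s
  s_ne := hs
  B := B
  f₁ := f₁
  f₂ := f₂
  ten := tenLin e P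
  ctr w := ∑ j, f₂ (Pi.single j 1) w • coord e P j
  cut φ := LinearMap.pi fun j => φ ∘ₗ coord e P j
  f₁_add_left := hf₁.add_left
  f₁_smul_left := hf₁.smul_left
  f₁_add_right := hf₁.add_right
  f₁_smul_right := hf₁.smul_right
  f₁_nondeg := hf₁.nondeg
  f₁_nondeg' := hf₁.nondeg'
  f₂_add_left := hf₂.add_left
  f₂_smul_left := hf₂.smul_left
  f₂_swap := hswap
  f₂_nondeg := hf₂.nondeg
  B_add_right := hBr
  B_add_left := hBl
  ctr_add z z' X := by
    simp [LinearMap.sum_apply, hf₂.add_right, add_smul, Finset.sum_add_distrib]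
  ctr_smul c z X := by
    simp [LinearMap.sum_apply, hf₂.smul_right, Finset.smul_sum, smul_smul]
  ctr_ten w u z := by
    simp only [LinearMap.sum_apply, LinearMap.smul_apply, coord_tenLin, smul_smul, ← Finset.sum_smul]
    congr 1
    rw [hf₂.expand_left z w]
    exact Finset.sum_congr rfl fun j _ => mul_comm _ _
  ctr_ext X h := by
    have h0 : ∀ j, coord e P j X = 0 := by
      intro j
      funext i
      have hr : (fun k => coord e P k X i) = (0 : Fin n₂ → F) := hf₂.nondeg _ fun v => by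
        have := congrFun (h v) i
        simp only [LinearMap.sum_apply, LinearMap.smul_apply, Finset.sum_apply, Pi.smul_apply,
          smul_eq_mul, Pi.zero_apply] at this
        rw [hf₂.expand_left, ← this]
        exact Finset.sum_congr rfl fun k _ => mul_comm _ _
      exact congrFun hr j
    have hX : ((P⁻¹ : GL ι F) : Matrix ι ι F) *ᵥ X = 0 := funext fun k => by
      have := congrFun (h0 (e k).2) (e k).1
      change (((P⁻¹ : GL ι F) : Matrix ι ι F) *ᵥ X) (e.symm ((e k).1, (e k).2)) = 0 at this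
      rwa [Prod.mk.eta, Equiv.symm_apply_apply] at this
    rw [← mulVec_inv P X, hX, mulVec_zero]
  cut_ctr φ X z := by
    rw [hf₂.expand_left]
    simp only [LinearMap.pi_apply, LinearMap.comp_apply, LinearMap.sum_apply, LinearMap.smul_apply, map_sum,
      map_smul, smul_eq_mul]
    exact Finset.sum_congr rfl fun j _ => mul_comm _ _
  B_ctr X u z := by
    let l : (ι → F) →ₗ[F] F :=
      { toFun := fun X => B X (tenLin e P u z)
        map_add' := fun X Y => hBl X Y _
        map_smul' := fun c X => hBs c X _ }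
    let r : (ι → F) →ₗ[F] F :=
      hf₁.left u ∘ₗ (∑ j, f₂ (Pi.single j 1) z • coord e P j)
    refine LinearMap.congr_fun (f := l) (g := r) (LinearMap.ext_on (tenLin_span e P) ?_) X
    rintro _ ⟨u', z', rfl⟩
    change B _ _ = hf₁.left u _
    simp only [LinearMap.sum_apply, LinearMap.smul_apply, coord_tenLin, smul_smul, ← Finset.sum_smul]
    rw [map_smul, smul_eq_mul, hB, hf₂.expand_left z' z, mul_comm (f₁ u' u)]
    show _ * f₁ u' u = _
    congr 1
    exact Finset.sum_congr rfl fun j _ => mul_comm _ _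
  ten_span := tenLin_span e P

/-- Kronecker products act factorwise on pure tensors. -/
lemma tconj_tenLin (e : ι ≃ Fin n₁ × Fin n₂) (P : GL ι F) (a : Matrix (Fin n₁) (Fin n₁) F)
    (b : Matrix (Fin n₂) (Fin n₂) F) (u : Fin n₁ → F) (z : Fin n₂ → F) :
    CfsgLib.Aschbacher.tconj e P (a ⊗ₖ b) *ᵥ tenLin e P u z = tenLin e P (a *ᵥ u) (b *ᵥ z) := by
  rw [tenLin_apply, tenLin_apply, CfsgLib.Aschbacher.tconj_apply, ← mulVec_mulVec, inv_mulVec,
    ← mulVec_mulVec, ← kronecker_mulVec_pureTen]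
  congr 1
  rw [Matrix.submatrix_mulVec_equiv, Function.comp_assoc, Equiv.self_comp_symm, Function.comp_id]

/-- An element acting factorwise on pure tensors lies in the stabiliser. -/
lemma mem_tensor_of_pure (h1 : 0 < n₁) (e : ι ≃ Fin n₁ × Fin n₂) (P g : GL ι F)
    (α : (Fin n₁ → F) ≃ₗ[F] (Fin n₁ → F)) (β : (Fin n₂ → F) →ₗ[F] (Fin n₂ → F))
    (h : ∀ u z, (g : Matrix ι ι F) *ᵥ tenLin e P u z = tenLin e P (α u) (β z)) :
    g ∈ Cfsg.Geo.tensorProductSubgroup n₁ n₂ e P := by
  set u₀ : Fin n₁ → F := Pi.single ⟨0, h1⟩ 1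
  have hinj : Function.Injective β := (injective_iff_map_eq_zero β).2 fun z hz => by
    have h' : tenLin e P u₀ z = 0 := mulVec_injective g (by simp [h, hz])
    funext j
    have := congrFun (congrArg (coord e P j) h') ⟨0, h1⟩
    rw [coord_tenLin, map_zero] at this
    simpa [u₀] using this
  let β' := LinearEquiv.ofInjectiveEndo β hinj
  have ha : IsUnit (LinearMap.toMatrix' α.toLinearMap) :=
    IsUnit.of_mul_eq_one (LinearMap.toMatrix' α.symm.toLinearMap) (by
      rw [← LinearMap.toMatrix'_comp, LinearEquiv.comp_symm, LinearMap.toMatrix'_id])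
  have hb : IsUnit (LinearMap.toMatrix' β'.toLinearMap) :=
    IsUnit.of_mul_eq_one (LinearMap.toMatrix' β'.symm.toLinearMap) (by
      rw [← LinearMap.toMatrix'_comp, LinearEquiv.comp_symm, LinearMap.toMatrix'_id])
  refine (CfsgLib.Aschbacher.mem_tensorProductSubgroup_iff e P g).2 ⟨ha.unit, hb.unit, ?_⟩
  refine Matrix.toLin'.injective (LinearMap.ext_on (tenLin_span e P) ?_)
  rintro _ ⟨u, z, rfl⟩
  rw [Matrix.toLin'_apply, Matrix.toLin'_apply, h, tconj_tenLin]
  simp [β', IsUnit.unit_spec, ← Matrix.toLin'_apply]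

end CfsgLib.FormTensor89
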