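import Cfsg.Agent.FormTensor89.Coeff
import Cfsg.Agent.OrthGeo.RootLines

/-!
An orthogonal space that is the tensor product of two symplectic spaces: a subgroup with the
transvections of both factors either preserves the decomposition or contains `Ω`.
-/

set_option autoImplicit false
set_option linter.unusedSectionVars false

namespace CfsgLib.FormTensor89

open Module Matrix Cfsg.Geo CfsgLib.OrthGeo

variable {ι : Type} [Fintype ι] [DecidableEq ι] {F : Type*} [Field F] [Finite F] {V₁ V₂ : Type*}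
  [AddCommGroup V₁] [Module F V₁] [AddCommGroup V₂] [Module F V₂] [Module.Finite F V₁] [Module.Finite F V₂]
  {Q : (ι → F) → F}

namespace TData

variable (hQ : IsNondegenerateQuadraticForm Q) {D : TData ι F V₁ V₂} {M : Subgroup (GL ι F)}
  (hS : D.Symp M) (hMQ : M ≤ Cfsg.isometryGroup F Q) (hB : ∀ X Y, D.B X Y = bform hQ X Y)
  (hpure : ∀ u z, Q (D.ten u z) = 0)

include hQ hS hMQ hB hpure

lemma b_ten (X : ι → F) (u : V₁) (z : V₂) : bform hQ X (D.ten u z) = D.f₁ (D.ctr z X) u := by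
  rw [← hB, D.B_ctr]

lemma b_ten_left (X : ι → F) (u : V₁) (z : V₂) : bform hQ (D.ten u z) X = D.f₁ (D.ctr z X) u := by
  rw [b_symm hQ, b_ten hQ hS hMQ hB hpure]

lemma b_ten_ten (u u' : V₁) (z z' : V₂) :
    bform hQ (D.ten u z) (D.ten u' z') = D.f₁ u u' * D.f₂ z z' := by
  rw [b_ten hQ hS hMQ hB hpure, D.ctr_ten, D.f₁_smul_left, mul_comm]

/-- The coefficients of the root groups are alternating. -/
lemma isT_alt (hV : ∃ w : V₂, w ≠ 0) {τ : V₁ →ₗ[F] V₁} (hτ : D.IsT M τ) (u : V₁) : D.f₁ u (τ u) = 0 := by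
  obtain ⟨w, hw⟩ := hV
  obtain ⟨v, hv⟩ := D.exists_dual_vec hw
  obtain ⟨g, hg, hgX⟩ := hτ w (hS.alt₂ w)
  have h := mem_isometryGroup.1 (hMQ hg) (D.ten u v)
  rw [hgX, R_apply, q_add hQ, hpure, hpure, zero_add, zero_add, b_ten_ten hQ hS hMQ hB hpure, D.ctr_ten,
    map_smul, smul_right₁ hS, skew₂ hS v w, hv] at h
  linear_combination h

/-- A radical coefficient `u ↦ f(u,a) a` gives root elements of lines. -/
lemma eIn_of_isX (hM : D.Hyp M) (h5 : 5 ≤ finrank F V₂) {a : V₁} (h : D.IsX M (D.rk a a)) {w z : V₂}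
    (hw : w ≠ 0) (hwz : D.f₂ w z = 0) (hind : z ∉ Submodule.span F {w}) :
    EIn Q M (D.ten a w) (D.ten a z) := by
  obtain ⟨g, hg, hgX⟩ := h.exact_elem hS hM h5 (isAdj_rk hS hM h5 a a) hw hwz hind
  refine ⟨g, hg, Matrix.ext_of_mulVec_single fun i => ?_⟩
  generalize (Pi.single i 1 : ι → F) = X
  rw [eichlerMat_mulVec hQ, hgX, hpure, b_ten_left hQ hS hMQ hB hpure, b_ten_left hQ hS hMQ hB hpure]
  simp only [N0_apply, LinearMap.neg_apply, rk_apply, map_smul, map_neg, LinearMap.smul_apply,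
    LinearMap.neg_apply, zero_mul, zero_smul, sub_zero]
  abel

/-- One root element of a line `a ⊗ ⟨w, z⟩` gives all of them. -/
lemma eIn_line (hM : D.Hyp M) (h5 : 5 ≤ finrank F V₂) {a₀ : V₁} (ha₀ : a₀ ≠ 0) (h : D.IsX M (D.rk a₀ a₀))
    (a : V₁) (w z : V₂) (hwz : D.f₂ w z = 0) : EIn Q M (D.ten a w) (D.ten a z) := by
  have triv : ∀ (U : ι → F) (c : F), Q U = 0 → EIn Q M U (c • U) := fun U c hU => by
    refine ⟨1, M.one_mem, ?_⟩
    have := eichlerMat_add_smul hQ (u := U) (w := 0) hU (map_zero _) c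
    rw [zero_add, eichlerMat_zero hQ] at this
    rw [this, Units.val_one]
  rcases eq_or_ne a 0 with rfl | ha
  · simpa using triv 0 0 (q_zero hQ)
  by_cases hind : z ∈ Submodule.span F {w}
  · obtain ⟨c, rfl⟩ := Submodule.mem_span_singleton.1 hind
    rw [map_smul]; exact triv _ c (hpure a w)
  rcases eq_or_ne w 0 with rfl | hw
  · rw [map_zero]
    refine ⟨1, M.one_mem, Matrix.ext_of_mulVec_single fun i => ?_⟩
    rw [eichlerMat_mulVec hQ, Units.val_one, Matrix.one_mulVec]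
    simp
  -- move `a₀` to `a`
  obtain ⟨y, hy₀, hy⟩ : ∃ y, D.f₁ a₀ y ≠ 0 ∧ D.f₁ a y ≠ 0 := by
    obtain ⟨x, hx⟩ : ∃ x, D.f₁ a₀ x ≠ 0 := by by_contra! h; exact ha₀ (D.f₁_nondeg a₀ h)
    obtain ⟨x', hx'⟩ : ∃ x', D.f₁ a x' ≠ 0 := by by_contra! h; exact ha (D.f₁_nondeg a h)
    by_cases h1 : D.f₁ a x = 0
    · by_cases h2 : D.f₁ a₀ x' = 0
      · exact ⟨x + x', by rw [D.f₁_add_right, h2, add_zero]; exact hx,
          by rw [D.f₁_add_right, h1, zero_add]; exact hx'⟩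
      · exact ⟨x', h2, hx'⟩
    · exact ⟨x, hx, h1⟩
  have h1 := eIn_of_isX hQ hS hMQ hB hpure hM h5 h hw hwz hind
  have step : ∀ {b b' : V₁}, D.f₁ b b' ≠ 0 → EIn Q M (D.ten b w) (D.ten b z) →
      EIn Q M (D.ten b' w) (D.ten b' z) := by
    intro b b' hbb hE
    obtain ⟨t, ⟨-, g, hg, hgX⟩, htb, -⟩ := exists_move₁ hS hbb
    have := hE.conj hQ (hpure b w) (by rw [b_ten_ten hQ hS hMQ hB hpure, hS.alt₁, zero_mul]) hg (hMQ hg)
    rwa [hgX, hgX, htb] at this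
  exact step (by rw [skew₁ hS]; exact neg_ne_zero.2 hy) (step hy₀ h1)

/-- The root groups at pure vectors. -/
lemma eIn_pure (hM : D.Hyp M) (h5 : 5 ≤ finrank F V₂) (h2 : 2 ≤ finrank F V₁) {a₀ : V₁} (ha₀ : a₀ ≠ 0)
    (h : D.IsX M (D.rk a₀ a₀)) {a : V₁} (ha : a ≠ 0) {w : V₂} (hw : w ≠ 0) {W : ι → F}
    (hW : bform hQ (D.ten a w) W = 0) : EIn Q M (D.ten a w) W := by
  set U := D.ten a w
  have hU : Q U = 0 := hpure a w
  have line := eIn_line hQ hS hMQ hB hpure hM h5 ha₀ h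
  have bzero : ∀ {u : V₁} {y : V₂}, D.f₂ w y = 0 → bform hQ U (D.ten u y) = 0 := fun hy => by
    rw [b_ten_ten hQ hS hMQ hB hpure, hy, mul_zero]
  have bzero' : ∀ {u : V₁} {y : V₂}, D.f₁ a u = 0 → bform hQ U (D.ten u y) = 0 := fun hu => by
    rw [b_ten_ten hQ hS hMQ hB hpure, hu, zero_mul]
  -- displacement by a root element of a line
  have disp : ∀ (u : V₁) (c d : V₂) (W : ι → F), D.f₂ c d = 0 → bform hQ U W = 0 → EIn Q M U W →
      (D.f₁ a u = 0 ∨ D.f₂ w c = 0 ∧ D.f₂ w d = 0) →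
      EIn Q M U (bform hQ (D.ten u d) W • D.ten u c - bform hQ (D.ten u c) W • D.ten u d) := by
    intro u c d W hcd hUW hE hfix
    obtain ⟨g, hg, hgE⟩ := line u c d hcd
    have hfixU : bform hQ (D.ten u c) U = 0 ∧ bform hQ (D.ten u d) U = 0 := by
      rw [b_symm hQ, b_symm hQ (D.ten u d)]
      rcases hfix with h | ⟨h, h'⟩
      · exact ⟨bzero' h, bzero' h⟩
      · exact ⟨bzero h, bzero h'⟩
    have h1 := hE.displacement hQ hU hUW hg (hMQ hg) (by
      rw [hgE, eichlerMat_mulVec hQ, hfixU.1, hfixU.2, hpure]; simp)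
    rw [hgE, eichlerMat_mulVec hQ, hpure] at h1
    rwa [zero_mul, zero_smul, sub_zero, add_sub_assoc, add_sub_cancel_left] at h1
  -- every `x ⊗ y` with `y` orthogonal to `w`
  have perpW : ∀ (u : V₁) (y : V₂), D.f₂ w y = 0 → EIn Q M U (D.ten u y) := by
    have main : ∀ (u : V₁) (y : V₂), D.f₂ w y = 0 → D.f₁ u a ≠ 0 → EIn Q M U (D.ten u y) := by
      intro u y hy hu
      obtain ⟨c, hcw, hcy, hc⟩ := exists_perp_avoid hS h5 w y
      obtain ⟨x, hcx, hx⟩ := exists_pair hS hc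
      have hwx : D.f₂ w x = 0 := hx w (by simp)
      have hyx : D.f₂ y x = 0 := hx y (by simp)
      set k := D.f₁ u a with hk
      have := disp u c ((-k⁻¹) • y) (D.ten a x) (by rw [smul_right₂ hS, hcy, mul_zero])
        (bzero' (hS.alt₁ a)) (line a w x hwx) (Or.inr ⟨f₂_comm_zero D hcw, by rw [smul_right₂ hS, hy, mul_zero]⟩)
      rw [b_ten_ten hQ hS hMQ hB hpure, b_ten_ten hQ hS hMQ hB hpure, D.f₂_smul_left, hyx, hcx] at this
      simpa [map_smul, smul_smul, ← hk, hu] using this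
    intro u y hy
    by_cases hu : D.f₁ u a = 0
    · obtain ⟨a', ha'⟩ : ∃ a', D.f₁ a' a ≠ 0 := by by_contra! h; exact ha (D.f₁_nondeg' a h)
      have h1 := (main (u + a') y hy (by rw [D.f₁_add_left, hu, zero_add]; exact ha')).sub hQ
        (main a' y hy ha') hU (bzero hy) (bzero hy)
      rwa [← LinearMap.sub_apply, ← map_sub, add_sub_cancel_right] at h1
    · exact main u y hy hu
  -- every `x ⊗ y` with `x` orthogonal to `a`
  have perpA : ∀ (u : V₁) (y : V₂), D.f₁ a u = 0 → EIn Q M U (D.ten u y) := by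
    intro u y hu
    rcases eq_or_ne u 0 with rfl | hu0
    · simpa using perpW 0 0 (f₂_zero_right D w)
    obtain ⟨a', ha'⟩ : ∃ a', D.f₁ u a' ≠ 0 := by by_contra! h; exact hu0 (D.f₁_nondeg u h)
    obtain ⟨x, hxw, hxy, hx⟩ := exists_perp_avoid hS h5 w y
    have hxy' : x ∉ Submodule.span F {y} := fun hm => hx (Submodule.span_mono (by simp) hm)
    obtain ⟨c, hxc, hc⟩ := exists_pair hS hxy'
    have hyc : D.f₂ y c = 0 := hc y rfl
    have := disp u c ((D.f₁ u a')⁻¹ • y) (D.ten a' x)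
      (by rw [smul_right₂ hS, f₂_comm_zero D hyc, mul_zero]) (bzero (f₂_comm_zero D hxw))
      (perpW a' x (f₂_comm_zero D hxw)) (Or.inl hu)
    rw [b_ten_ten hQ hS hMQ hB hpure, b_ten_ten hQ hS hMQ hB hpure, D.f₂_smul_left,
      f₂_comm_zero D hxy, skew₂ hS c x, hxc] at this
    simpa [map_smul, smul_smul, ha'] using this
  obtain ⟨a', ha'⟩ : ∃ a', D.f₁ a a' = 1 := by
    obtain ⟨x, hx⟩ : ∃ x, D.f₁ a x ≠ 0 := by by_contra! h; exact ha (D.f₁_nondeg a h)
    exact ⟨(D.f₁ a x)⁻¹ • x, by rw [smul_right₁ hS, inv_mul_cancel₀ hx]⟩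
  obtain ⟨w', hw'⟩ := D.exists_dual_vec hw
  let P : (ι → F) →ₗ[F] (ι → F) := LinearMap.id - (bform hQ U).smulRight (D.ten a' w')
  have hP : ∀ Y, bform hQ U (P Y) = 0 ∧ EIn Q M U (P Y) := by
    intro Y
    have hY : Y ∈ Submodule.span F {X | ∃ u z, D.ten u z = X} := by rw [D.ten_span]; trivial
    have hbP : ∀ Z, bform hQ U (P Z) = 0 := fun Z => by
      simp only [P, LinearMap.sub_apply, LinearMap.id_apply, LinearMap.smulRight_apply, map_sub, map_smul, U,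
        b_ten_ten hQ hS hMQ hB hpure, ha', hw', smul_eq_mul, mul_one, sub_self]
    refine ⟨hbP Y, ?_⟩
    suffices ∀ c : F, EIn Q M U (P (c • Y)) by simpa using this 1
    refine Submodule.span_induction (p := fun Y _ => ∀ c : F, EIn Q M U (P (c • Y))) (fun Z hZ c => ?_)
      (fun c => by simpa using perpW 0 0 (f₂_zero_right D w))
      (fun X Z _ _ hX hZ c => by rw [smul_add, map_add]; exact (hX c).add hQ (hZ c) hU (hbP _) (hbP _))
      (fun k X _ hX c => by rw [smul_smul]; exact hX _) hY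
    obtain ⟨u, z, rfl⟩ := hZ
    set l := D.f₁ a u
    set μ := D.f₂ w z
    have hu : D.f₁ a (c • (u - l • a')) = 0 := by
      rw [smul_right₁ hS, sub_eq_add_neg, ← neg_smul, D.f₁_add_right, smul_right₁ hS, ha']; ring
    have hz : D.f₂ w (z - μ • w') = 0 := by rw [f₂_sub_right, smul_right₂ hS, hw', mul_one, sub_self]
    have e : P (c • D.ten u z) = D.ten (c • (u - l • a')) z + D.ten ((c * l) • a') (z - μ • w') := by
      simp only [P, LinearMap.sub_apply, LinearMap.id_apply, LinearMap.smulRight_apply, U,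
        b_ten_ten hQ hS hMQ hB hpure, map_sub, map_smul, LinearMap.smul_apply, smul_eq_mul, l, μ]
      module
    rw [e]
    exact (perpA _ z hu).add hQ (perpW _ _ hz) hU (bzero' hu) (bzero hz)
  have := hP W
  simpa only [P, LinearMap.sub_apply, LinearMap.id_apply, LinearMap.smulRight_apply, hW, zero_smul,
    sub_zero] using this.2

/-- The dichotomy. -/
theorem preserves_or_omega_le (h2 : 2 ≤ finrank F V₁) (hdim : finrank F V₁ + 2 ≤ finrank F V₂)
    (h5 : 5 ≤ finrank F V₂) (hq : 3 ≤ Nat.card F ∨ 3 ≤ finrank F V₁) (hn : 5 ≤ Fintype.card ι) :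
    (∀ g ∈ M, ∃ (α : V₁ ≃ₗ[F] V₁) (β : V₂ →ₗ[F] V₂), ∀ u z,
      (g : Matrix ι ι F) *ᵥ D.ten u z = D.ten (α u) (β z)) ∨ omegaGL Q ≤ M := by
  have hM := hyp hS h2 hdim h5 hq
  have : Nontrivial V₂ := Module.nontrivial_of_finrank_pos (R := F) (by omega)
  by_cases hsc : D.OnlyScalars M
  · exact Or.inl fun g hg => preserves hM hsc (by omega) (exists_ctr_ker hS hdim) hg
  obtain ⟨a₀, ha₀, h⟩ := exists_isX_rk hS hM h5 h2 hq
    (fun τ hτ => isT_alt hQ hS hMQ hB hpure (exists_ne 0) hτ) hsc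
  refine Or.inr (omega_le_of_root_vectors hQ hn hMQ {X | ∃ u z, u ≠ 0 ∧ z ≠ 0 ∧ D.ten u z = X} ?_ ?_)
  · rintro _ ⟨u, z, hu, hz, rfl⟩
    exact ⟨hpure u z, fun W hW => eIn_pure hQ hS hMQ hB hpure hM h5 h2 ha₀ h hu hz hW⟩
  · intro Y hY hY0
    obtain ⟨z, hz⟩ : ∃ z, D.ctr z Y ≠ 0 := by by_contra! h; exact hY0 (D.ctr_ext Y h)
    obtain ⟨u, hu⟩ : ∃ u, D.f₁ (D.ctr z Y) u ≠ 0 := by by_contra! h; exact hz (D.f₁_nondeg _ h)
    have hu0 : u ≠ 0 := by
      rintro rfl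
      exact hu (by simpa using D.f₁_smul_right 0 (D.ctr z Y) 0)
    have hz0 : z ≠ 0 := by rintro rfl; exact hz (D.ctr_zero Y)
    obtain ⟨v, hv⟩ : ∃ v, D.f₁ u v ≠ 0 := by by_contra! h; exact hu0 (D.f₁_nondeg u h)
    obtain ⟨z', hz'⟩ := D.exists_dual_vec hz0
    refine ⟨D.ten u z, ⟨u, z, hu0, hz0, rfl⟩, D.ten v z', ⟨v, z', ?_, ?_, rfl⟩, ?_, ?_⟩
    · rintro rfl; exact hv (by simpa using D.f₁_smul_right 0 u 0)
    · rintro rfl; rw [f₂_zero_right] at hz'; exact zero_ne_one hz'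
    · rw [b_ten_ten hQ hS hMQ hB hpure, hz', mul_one]; exact hv
    · rwa [b_ten_left hQ hS hMQ hB hpure]

end TData

end CfsgLib.FormTensor89
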