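import Cfsg.Agent.FormTensor89.Stab

/-!
With only scalar coefficients the group preserves the tensor decomposition.
-/

set_option autoImplicit false
set_option linter.unusedSectionVars false

namespace CfsgLib.FormTensor89

open Module Matrix

variable {ι : Type} [Fintype ι] [DecidableEq ι] {F : Type*} [Field F] {V₁ V₂ : Type*} [AddCommGroup V₁]
  [Module F V₁] [AddCommGroup V₂] [Module F V₂] {D : TData ι F V₁ V₂} {M : Subgroup (GL ι F)}

namespace TData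

/-- `g` maps every isotropic member onto one. -/
def Maps (D : TData ι F V₁ V₂) (g : GL ι F) : Prop :=
  ∀ w, w ≠ 0 → D.f₂ w w = 0 → ∃ w', w' ≠ 0 ∧ D.f₂ w' w' = 0 ∧
    ∀ u, (g : Matrix ι ι F) *ᵥ D.ten u w ∈ D.memb w'

lemma exists_ne_zero_V₁ (hM : D.Hyp M) : ∃ u : V₁, u ≠ 0 := by
  obtain ⟨u, v, huv⟩ := hM.two
  exact ⟨u, fun h => huv (by rw [h]; simpa using D.f₁_smul_left 0 0 v)⟩

lemma iso_of_image (hM : D.Hyp M) {g : GL ι F} (hg : g ∈ M) {w w' : V₂} (hw : D.f₂ w w = 0)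
    (α : V₁ ≃ₗ[F] V₁) (h : ∀ u, (g : Matrix ι ι F) *ᵥ D.ten u w = D.ten (α u) w') : D.f₂ w' w' = 0 := by
  obtain ⟨u, v, huv⟩ := hM.two
  have h1 := hM.iso g hg (D.ten (α.symm u) w) (D.ten (α.symm v) w)
  rw [h, h, α.apply_symm_apply, α.apply_symm_apply, D.B_ctr, D.B_ctr, D.ctr_ten, D.ctr_ten, D.f₁_smul_left,
    D.f₁_smul_left, hw, zero_mul] at h1
  exact (mul_eq_zero.1 h1).resolve_right huv

/-- An element fixing one member maps all members to members. -/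
lemma maps_of_fix [Module.Finite F V₁] (hM : D.Hyp M) (hsc : D.OnlyScalars M) {g : GL ι F} (hg : g ∈ M)
    {w : V₂} (hw : w ≠ 0) (hww : D.f₂ w w = 0) (hst : ∀ u, (g : Matrix ι ι F) *ᵥ D.ten u w ∈ D.memb w) :
    D.Maps g := by
  obtain ⟨u₀, hu₀⟩ := exists_ne_zero_V₁ hM
  have step : ∀ (g : GL ι F), g ∈ M → ∀ (w w' : V₂), w ≠ 0 → D.f₂ w w = 0 → w' ≠ 0 → D.f₂ w' w' = 0 →
      (∀ u, (g : Matrix ι ι F) *ᵥ D.ten u w ∈ D.memb w') → ∀ y, y ≠ 0 → D.f₂ y y = 0 → D.f₂ w y = 0 →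
      ∃ y', y' ≠ 0 ∧ D.f₂ y' y' = 0 ∧ ∀ u, (g : Matrix ι ι F) *ᵥ D.ten u y ∈ D.memb y' := by
    intro g hg w w' hw hww hw' hww' hgw y hy hyy hwy
    obtain ⟨b, ⟨hb, h, hh, hhb⟩, hbw⟩ := hM.trans₁ w w' hw hw' hww hww'
    set k := h⁻¹ * g
    have hk : k ∈ M := M.mul_mem (M.inv_mem hh) hg
    have hgk : ∀ X, (g : Matrix ι ι F) *ᵥ X = (h : Matrix ι ι F) *ᵥ ((k : Matrix ι ι F) *ᵥ X) := fun X => by
      rw [← mul_mulVec, mul_inv_cancel_left]
    have hkw : ∀ u, (k : Matrix ι ι F) *ᵥ D.ten u w ∈ D.memb w := fun u => by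
      obtain ⟨v, hv⟩ := D.mem_memb.1 (hgw u)
      refine D.mem_memb.2 ⟨v, mulVec_injective h ?_⟩
      simp only [← hgk, hhb, hbw, hv]
    obtain ⟨α, -, hα⟩ := stab_perp hM hsc hk hw hww hkw
    obtain ⟨y', hy'⟩ := hα y hyy hwy
    refine ⟨b y', ?_, by rw [hb]; exact iso_of_image hM hk hyy α hy', fun u => ?_⟩
    · intro h0
      have h1 := hgk (D.ten u₀ y)
      rw [hy', hhb, h0, map_zero] at h1
      exact hu₀ (D.ten_eq_zero hy (mulVec_injective g (by simpa using h1)))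
    · rw [hgk, hy', hhb]
      exact D.ten_mem_memb _ _
  intro z hz hzz
  obtain ⟨y, hy, hyy, hwy, hzy, -, -⟩ := hM.conn w z hww hzz
  obtain ⟨y', hy', hyy', hgy⟩ := step g hg w w hw hww hw hww hst y hy hyy hwy
  exact step g hg y y' hy hyy hy' hyy' hgy z hz hzz (f₂_comm_zero D hzy)

/-- An element carrying one member to a member maps all members to members. -/
lemma maps_of_image [Module.Finite F V₁] (hM : D.Hyp M) (hsc : D.OnlyScalars M) {g : GL ι F} (hg : g ∈ M)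
    {w w' : V₂} (hw : w ≠ 0) (hww : D.f₂ w w = 0) (hw' : w' ≠ 0) (hww' : D.f₂ w' w' = 0)
    (hgw : ∀ u, (g : Matrix ι ι F) *ᵥ D.ten u w ∈ D.memb w') : D.Maps g := by
  obtain ⟨b, ⟨hb, h, hh, hhb⟩, hbw⟩ := hM.trans₁ w' w hw' hw hww' hww
  have hk := maps_of_fix hM hsc (M.mul_mem hh hg) hw hww fun u => by
    obtain ⟨v, hv⟩ := D.mem_memb.1 (hgw u)
    rw [mul_mulVec, ← hv, hhb, hbw]
    exact D.ten_mem_memb _ _
  intro z hz hzz
  obtain ⟨z', hz', hzz', hkz⟩ := hk z hz hzz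
  refine ⟨b.symm z', by simpa using hz', by rwa [← hb, b.apply_symm_apply], fun u => ?_⟩
  obtain ⟨v, hv⟩ := D.mem_memb.1 (hkz u)
  refine D.mem_memb.2 ⟨v, mulVec_injective h ?_⟩
  simp only [hhb, b.apply_symm_apply, hv, mul_mulVec]

/-- An element mapping members to members is a tensor map. -/
theorem tensor_of_maps [Module.Finite F V₁] [Module.Finite F V₂] (hM : D.Hyp M) (hsc : D.OnlyScalars M)
    {g : GL ι F} (hg : g ∈ M) (hmaps : D.Maps g) :
    ∃ (α : V₁ ≃ₗ[F] V₁) (β : V₂ →ₗ[F] V₂), ∀ u z, (g : Matrix ι ι F) *ᵥ D.ten u z = D.ten (α u) (β z) := by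
  obtain ⟨u₀, hu₀⟩ := exists_ne_zero_V₁ hM
  have h00 : D.f₂ 0 0 = 0 := f₂_zero_left D 0
  obtain ⟨w, hw, hww, -, -, -, -⟩ := hM.conn 0 0 h00 h00
  -- pieces around one member
  have piece : ∀ w, w ≠ 0 → D.f₂ w w = 0 → ∃ α : V₁ ≃ₗ[F] V₁, (∃ w', ∀ u,
      (g : Matrix ι ι F) *ᵥ D.ten u w = D.ten (α u) w') ∧
      ∀ y, D.f₂ y y = 0 → D.f₂ w y = 0 → ∃ y', ∀ u, (g : Matrix ι ι F) *ᵥ D.ten u y = D.ten (α u) y' := by
    intro w hw hww
    obtain ⟨w', hw', hww', hgw⟩ := hmaps w hw hww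
    obtain ⟨b, ⟨hb, h, hh, hhb⟩, hbw⟩ := hM.trans₁ w' w hw' hw hww' hww
    obtain ⟨α, hα₀, hα⟩ := stab_perp hM hsc (M.mul_mem hh hg) hw hww fun u => by
      obtain ⟨v, hv⟩ := D.mem_memb.1 (hgw u)
      rw [mul_mulVec, ← hv, hhb, hbw]
      exact D.ten_mem_memb _ _
    have hback : ∀ u y v y', ((h * g : GL ι F) : Matrix ι ι F) *ᵥ D.ten u y = D.ten v y' →
        (g : Matrix ι ι F) *ᵥ D.ten u y = D.ten v (b.symm y') := fun u y v y' e =>
      mulVec_injective h (by simp only [hhb, b.apply_symm_apply, ← e, mul_mulVec])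
    refine ⟨α, ⟨b.symm w, fun u => hback _ _ _ _ (hα₀ u)⟩, fun y hyy hwy => ?_⟩
    obtain ⟨y', hy'⟩ := hα y hyy hwy
    exact ⟨b.symm y', fun u => hback _ _ _ _ (hy' u)⟩
  obtain ⟨α, ⟨w', hw'⟩, hα⟩ := piece w hw hww
  refine ⟨α, ?_⟩
  -- the same map everywhere
  have all : ∀ z, D.f₂ z z = 0 → ∃ z', ∀ u, (g : Matrix ι ι F) *ᵥ D.ten u z = D.ten (α u) z' := by
    intro z hzz
    rcases eq_or_ne z 0 with rfl | hz
    · exact ⟨0, fun u => by simp⟩
    obtain ⟨y, hy, hyy, hwy, hzy, -, -⟩ := hM.conn w z hww hzz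
    obtain ⟨y', hy'⟩ := hα y hyy hwy
    obtain ⟨α', ⟨y'', hy''⟩, hα'⟩ := piece y hy hyy
    obtain ⟨z', hz'⟩ := hα' z hzz (f₂_comm_zero D hzy)
    have hy'0 : y' ≠ 0 := fun h0 => hu₀ (D.ten_eq_zero hy (mulVec_injective g (by
      simpa [h0] using hy' u₀)))
    have hy''0 : y'' ≠ 0 := fun h0 => hu₀ (D.ten_eq_zero hy (mulVec_injective g (by
      simpa [h0] using hy'' u₀)))
    obtain ⟨v, hv⟩ := D.exists_dual_vec hy''0
    refine ⟨D.f₂ y' v • z', fun u => ?_⟩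
    have h1 := congrArg (D.ctr v) ((hy'' u).symm.trans (hy' u))
    rw [D.ctr_ten, D.ctr_ten, hv, one_smul] at h1
    rw [hz', h1, map_smul, LinearMap.smul_apply, map_smul]
  -- linearity
  obtain ⟨f, hf⟩ := Module.Projective.exists_dual_ne_zero F (x := α u₀) (by simpa using hu₀)
  let φ : V₁ →ₗ[F] F := (f (α u₀))⁻¹ • f
  let β : V₂ →ₗ[F] V₂ := D.cut φ ∘ₗ (g : Matrix ι ι F).mulVecLin ∘ₗ D.ten u₀
  refine ⟨β, fun u z => ?_⟩
  have hz : z ∈ Submodule.span F {y | D.f₂ y y = 0 ∧ D.f₂ 0 y = 0} :=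
    hM.span_perp 0 h00 z (f₂_zero_left D z)
  refine Submodule.span_induction
    (p := fun z _ => (g : Matrix ι ι F) *ᵥ D.ten u z = D.ten (α u) (β z)) (fun y hy => ?_) (by simp)
    (fun a b _ _ ha hb => by rw [map_add, mulVec_add, ha, hb, map_add, map_add])
    (fun c a _ ha => by rw [map_smul, mulVec_smul, ha, map_smul, map_smul]) hz
  obtain ⟨y', hy'⟩ := all y hy.1
  have hβ : β y = y' := by
    refine sub_eq_zero.1 (D.f₂_nondeg _ fun z => ?_)
    rw [sub_eq_add_neg, ← neg_one_smul F y', D.f₂_add_left, D.f₂_smul_left]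
    simp [β, D.cut_ctr, hy', D.ctr_ten, φ, hf]
  rw [hy', hβ]

/-- The image of a member. -/
def img (D : TData ι F V₁ V₂) (g : GL ι F) (w : V₂) : Submodule F (ι → F) :=
  (D.memb w).map (g : Matrix ι ι F).mulVecLin

lemma finrank_memb [Module.Finite F V₁] {w : V₂} (hw : w ≠ 0) : finrank F (D.memb w) = finrank F V₁ :=
  LinearMap.finrank_range_of_inj (D.ten_left_injective hw)

lemma mem_img {g : GL ι F} {w : V₂} {X : ι → F} :
    X ∈ D.img g w ↔ ∃ u, (g : Matrix ι ι F) *ᵥ D.ten u w = X :=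
  ⟨fun ⟨_, ⟨u, hu⟩, h⟩ => ⟨u, by rw [← h, ← hu]; rfl⟩,
    fun ⟨u, hu⟩ => ⟨_, D.ten_mem_memb u w, hu⟩⟩

lemma finrank_img [Module.Finite F V₁] (g : GL ι F) {w : V₂} (hw : w ≠ 0) :
    finrank F (D.img g w) = finrank F V₁ := by
  rw [← D.finrank_memb hw]
  exact (Submodule.equivMapOfInjective _ (mulVec_injective g) _).finrank_eq.symm

/-- If the conjugate by `g` of a root element maps members and keeps a vector of one member, so does `g`. -/
lemma maps_of_conj_root [Module.Finite F V₁] [Module.Finite F V₂] (hM : D.Hyp M) (hsc : D.OnlyScalars M)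
    (hdim : finrank F V₁ < finrank F V₂) {g : GL ι F} (hg : g ∈ M) {w₀ k' : V₂} (hw₀ : w₀ ≠ 0)
    (hww₀ : D.f₂ w₀ w₀ = 0) (hk' : k' ≠ 0) (hkk : D.f₂ k' k' = 0) {x : GL ι F} (hx : x ∈ M) {ε : F}
    (hε : ε ≠ 0) (hxY : ∀ Y, (x : Matrix ι ι F) *ᵥ Y = Y + D.R (ε • LinearMap.id) k' Y)
    (hmaps : D.Maps (g⁻¹ * x * g)) (hne : D.img (g⁻¹ * x * g) w₀ ⊓ D.memb w₀ ≠ ⊥) : D.Maps g := by
  by_contra hnm
  set h := g⁻¹ * x * g
  have hh : h ∈ M := M.mul_mem (M.mul_mem (M.inv_mem hg) hx) hg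
  have hgh : ∀ Y, (g : Matrix ι ι F) *ᵥ ((h : Matrix ι ι F) *ᵥ Y) = (x : Matrix ι ι F) *ᵥ ((g : Matrix ι ι F) *ᵥ Y) := by
    intro Y; simp only [h, mul_mulVec, mulVec_inv]
  -- `h` fixes the member at `w₀`
  obtain ⟨w₁, hw₁, hww₁, hhw₁⟩ := hmaps w₀ hw₀ hww₀
  have hhw : ∀ u, (h : Matrix ι ι F) *ᵥ D.ten u w₀ ∈ D.memb w₀ := by
    obtain ⟨Y, hY, hY0⟩ := Submodule.exists_mem_ne_zero_of_ne_bot hne
    obtain ⟨u, hu⟩ := D.mem_memb.1 hY.2
    obtain ⟨v, hv⟩ := mem_img.1 hY.1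
    obtain ⟨v', hv'⟩ := D.mem_memb.1 (hhw₁ v)
    have huv : D.ten v' w₁ = D.ten u w₀ := by rw [hv', hv, hu]
    have hu0 : u ≠ 0 := fun h0 => hY0 (by rw [← hu, h0]; simp)
    obtain ⟨f, hf⟩ := Module.Projective.exists_dual_ne_zero F hu0
    have hw₀₁ : f u • w₀ = f v' • w₁ := by
      refine sub_eq_zero.1 (D.f₂_nondeg _ fun z => ?_)
      have h1 := congrArg (fun X => f (D.ctr z X)) huv
      simp only [D.ctr_ten, map_smul, smul_eq_mul] at h1
      rw [sub_eq_add_neg, ← neg_smul, D.f₂_add_left, D.f₂_smul_left, D.f₂_smul_left]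
      linear_combination -h1
    have hv'0 : f v' ≠ 0 := by
      intro h0
      rw [h0, zero_smul, smul_eq_zero] at hw₀₁
      exact hw₀₁.elim hf hw₀
    intro u'
    obtain ⟨c, hc⟩ := D.mem_memb.1 (hhw₁ u')
    refine D.mem_memb.2 ⟨((f v')⁻¹ * f u) • c, ?_⟩
    rw [← hc, LinearMap.map_smul₂, ← map_smul (D.ten c), ← smul_smul, hw₀₁, smul_smul,
      inv_mul_cancel₀ hv'0, one_smul]
  obtain ⟨α, hα₀, hα⟩ := stab_perp hM hsc hh hw₀ hww₀ hhw
  -- the quadratic unipotent `h` acts trivially on the first factor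
  let N : (ι → F) →ₗ[F] (ι → F) := (h : Matrix ι ι F).mulVecLin - LinearMap.id
  have hNimg : LinearMap.range N ≤ D.img g⁻¹ k' := by
    rintro _ ⟨Y, rfl⟩
    refine mem_img.2 ⟨ε • D.ctr k' ((g : Matrix ι ι F) *ᵥ Y), mulVec_injective g ?_⟩
    simp only [N, LinearMap.sub_apply, Matrix.mulVecLin_apply, LinearMap.id_apply, mulVec_inv, mulVec_sub,
      hgh, hxY, R_apply, add_sub_cancel_left]
    simp
  have hNN : ∀ Y, N (N Y) = 0 := by
    intro Y
    obtain ⟨u, hu⟩ := mem_img.1 (hNimg (LinearMap.mem_range_self N Y))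
    rw [← hu]
    refine mulVec_injective g ?_
    simp only [N, LinearMap.sub_apply, Matrix.mulVecLin_apply, LinearMap.id_apply, mulVec_sub, hgh, mulVec_inv, hxY, R_apply]
    simp [D.ctr_ten, hkk]
  have hrange : finrank F (LinearMap.range N) ≤ finrank F V₁ :=
    (Submodule.finrank_mono hNimg).trans (finrank_img _ hk').le
  obtain ⟨u₀, hu₀⟩ := exists_ne_zero_V₁ hM
  have hfixα : ∀ u, α u = u := by
    suffices hsc' : ∀ u, α u ∈ Submodule.span F {u} by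
      intro u
      rcases eq_or_ne u 0 with rfl | hu
      · simp
      obtain ⟨c, hc⟩ := Submodule.mem_span_singleton.1 (hsc' u)
      have h1 := hNN (D.ten u w₀)
      have h2 : N (D.ten u w₀) = (c - 1) • D.ten u w₀ := by
        simp [N, hα₀, ← hc, sub_smul]
      rw [h2, map_smul, h2, smul_smul, smul_eq_zero, mul_self_eq_zero, sub_eq_zero] at h1
      rcases h1 with h1 | h1
      · rw [← hc, h1, one_smul]
      · exact absurd (D.ten_eq_zero hw₀ h1) hu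
    intro u
    by_contra hind
    -- two independent rows give a map of too large rank
    obtain ⟨f, hfu, hfα⟩ : ∃ f : V₁ →ₗ[F] F, f u = 1 ∧ f (α u) = 0 := by
      have : u ∉ Submodule.span F {α u} := fun hm => by
        obtain ⟨c, hc⟩ := Submodule.mem_span_singleton.1 hm
        rcases eq_or_ne c 0 with rfl | hc0
        · rw [zero_smul] at hc
          exact hind (by rw [← hc, map_zero]; exact zero_mem _)
        · exact hind (Submodule.mem_span_singleton.2 ⟨c⁻¹, by rw [← hc, inv_smul_smul₀ hc0, hc]⟩)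
      obtain ⟨f, hf, hker⟩ := Submodule.exists_le_ker_of_notMem this
      exact ⟨(f u)⁻¹ • f, by simp [hf], by
        simp [show f (α u) = 0 from hker (Submodule.mem_span_singleton_self _)]⟩
    -- the element is a tensor map, so the rank is that of the second factor
    obtain ⟨α', β, hαβ⟩ := tensor_of_maps hM hsc hh hmaps
    let T : V₂ →ₗ[F] (ι → F) := N ∘ₗ D.ten u
    have hα'α : ∃ c : F, c ≠ 0 ∧ α' u = c • α u := by
      obtain ⟨z, hz⟩ := D.exists_dual_vec hw₀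
      have h1 := congrArg (D.ctr z) ((hαβ u w₀).symm.trans (hα₀ u))
      rw [D.ctr_ten, D.ctr_ten, hz, one_smul] at h1
      have hb : D.f₂ (β w₀) z ≠ 0 := fun h0 => hind (by
        rw [← h1, h0, zero_smul]; exact zero_mem _)
      exact ⟨(D.f₂ (β w₀) z)⁻¹, inv_ne_zero hb, by rw [← h1, inv_smul_smul₀ hb]⟩
    obtain ⟨c, -, hc⟩ := hα'α
    have hT : ∀ y, (D.cut f) (T y) = -y := by
      intro y
      refine eq_neg_of_add_eq_zero_left (D.f₂_nondeg _ fun z => ?_)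
      rw [D.f₂_add_left, D.cut_ctr]
      simp [T, N, hαβ, hc, D.ctr_ten, hfu, hfα]
    have h1 : finrank F V₂ ≤ finrank F (LinearMap.range N) := by
      have hinj : Function.Injective (T.codRestrict (LinearMap.range N) fun y => LinearMap.mem_range_self N _) :=
        fun a b hab => by
          have h := congrArg (fun Z : LinearMap.range N => D.cut f (Z : ι → F)) hab
          simp only [LinearMap.codRestrict_apply, hT, neg_inj] at h
          exact h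
      exact LinearMap.finrank_le_finrank_of_injective hinj
    omega
  by_cases hfix' : ∀ y, D.f₂ y y = 0 → D.f₂ w₀ y = 0 → ∀ u, (h : Matrix ι ι F) *ᵥ D.ten u y = D.ten u y
  · -- the range is inside the member at `w₀`
    have hle2 : LinearMap.range N ≤ D.memb w₀ := by
      rintro _ ⟨Y, rfl⟩
      refine D.mem_memb_of_ctr hw₀ fun z hz => ctr_zero_of_iso hM hww₀ (fun y hyy hwy => ?_) hz
      refine D.f₁_nondeg _ fun v => ?_
      rw [← D.B_ctr]
      have h1 := hM.iso h hh Y (D.ten v y)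
      rw [hfix' y hyy hwy] at h1
      rw [show (h : Matrix ι ι F) *ᵥ Y = N Y + Y by simp [N], D.B_add_left] at h1
      linear_combination h1
    have hle3 : D.img g⁻¹ k' ≤ D.memb w₀ := by
      intro Z hZ
      obtain ⟨u, rfl⟩ := mem_img.1 hZ
      obtain ⟨v, hv⟩ := D.exists_dual_vec hk'
      refine hle2 ⟨((g⁻¹ : GL ι F) : Matrix ι ι F) *ᵥ ((D.f₂ v k' * ε)⁻¹ • D.ten u v), mulVec_injective g ?_⟩
      have hvk : D.f₂ v k' ≠ 0 := fun h => by
        rw [D.f₂_comm_zero h] at hv; exact zero_ne_one hv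
      simp only [N, LinearMap.sub_apply, Matrix.mulVecLin_apply, LinearMap.id_apply, mulVec_sub, hgh,
        mulVec_inv, hxY, R_apply, add_sub_cancel_left]
      simp [D.ctr_ten, smul_smul]
      field_simp
      simp
    refine hnm (maps_of_image hM hsc hg hw₀ hww₀ hk' hkk fun u => ?_)
    have heq : D.img g⁻¹ k' = D.memb w₀ :=
      Submodule.eq_of_le_of_finrank_le hle3 (by rw [finrank_img _ hk', finrank_memb hw₀])
    obtain ⟨v, hv⟩ := mem_img.1 (heq.ge (D.ten_mem_memb u w₀))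
    rw [← hv, mulVec_inv]
    exact D.ten_mem_memb _ _
  · push Not at hfix'
    obtain ⟨y, hyy, hwy, u, hu⟩ := hfix'
    obtain ⟨y', hy'⟩ := hα y hyy hwy
    simp only [hfixα] at hy'
    have hyy' : y' ≠ y := fun h0 => hu (by rw [hy', h0])
    set z := y' - y
    have hz : z ≠ 0 := sub_ne_zero.2 hyy'
    have hle3 : D.memb z ≤ D.img g⁻¹ k' := fun Z hZ => by
      obtain ⟨u, rfl⟩ := D.mem_memb.1 hZ
      exact hNimg ⟨D.ten u y, by simp [N, hy', z]⟩
    have heq : D.memb z = D.img g⁻¹ k' :=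
      Submodule.eq_of_le_of_finrank_le hle3 (by rw [finrank_img _ hk', finrank_memb hz])
    have hzz : D.f₂ z z = 0 := by
      obtain ⟨a, b, hab⟩ := hM.two
      obtain ⟨a', ha'⟩ := mem_img.1 (heq.le (D.ten_mem_memb a z))
      obtain ⟨b', hb'⟩ := mem_img.1 (heq.le (D.ten_mem_memb b z))
      have h1 := hM.iso g⁻¹ (M.inv_mem hg) (D.ten a' k') (D.ten b' k')
      rw [ha', hb', D.B_ctr, D.B_ctr, D.ctr_ten, D.ctr_ten, D.f₁_smul_left, D.f₁_smul_left, hkk,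
        zero_mul] at h1
      exact (mul_eq_zero.1 h1).resolve_right hab
    refine hnm (maps_of_image hM hsc hg hz hzz hk' hkk fun u => ?_)
    obtain ⟨v, hv⟩ := mem_img.1 (heq.le (D.ten_mem_memb u z))
    rw [← hv, mulVec_inv]
    exact D.ten_mem_memb _ _

/-- An element carrying an isotropic member into the orthogonal of one maps members. -/
theorem maps_of_ctr_eq_zero [Module.Finite F V₁] [Module.Finite F V₂] (hM : D.Hyp M) (hsc : D.OnlyScalars M)
    (hdim : finrank F V₁ < finrank F V₂) {g : GL ι F} (hg : g ∈ M) {w₀ k : V₂} (hw₀ : w₀ ≠ 0)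
    (hww₀ : D.f₂ w₀ w₀ = 0) (hk : k ≠ 0) (hkk : D.f₂ k k = 0)
    (h0 : ∀ u, D.ctr k ((g : Matrix ι ι F) *ᵥ D.ten u w₀) = 0) : D.Maps g := by
  obtain ⟨ε, hε, hR⟩ := hM.root
  obtain ⟨x, hx, hxY⟩ := hR k hkk
  have hfix : ∀ u, ((g⁻¹ * x * g : GL ι F) : Matrix ι ι F) *ᵥ D.ten u w₀ = D.ten u w₀ := fun u => by
    rw [mul_mulVec, mul_mulVec, hxY, R_apply, h0, map_zero, map_zero, LinearMap.zero_apply, add_zero, inv_mulVec]
  obtain ⟨u₀, hu₀⟩ := exists_ne_zero_V₁ hM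
  refine maps_of_conj_root hM hsc hdim hg hw₀ hww₀ hk hkk hx hε hxY
    (maps_of_fix hM hsc (M.mul_mem (M.mul_mem (M.inv_mem hg) hx) hg) hw₀ hww₀ fun u => by
      rw [hfix u]; exact D.ten_mem_memb _ _) fun hbot => hu₀ (D.ten_eq_zero hw₀ ?_)
  rw [← Submodule.mem_bot F, ← hbot]
  exact ⟨mem_img.2 ⟨u₀, hfix u₀⟩, D.ten_mem_memb _ _⟩

/-- No member and image of a member coincide or share an element, unless the element maps members. -/
lemma finrank_meet_le [Module.Finite F V₁] [Module.Finite F V₂] (hM : D.Hyp M) (hsc : D.OnlyScalars M)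
    (hdim : finrank F V₁ < finrank F V₂)
    (hker : ∀ X w, D.f₂ w w = 0 → ∃ k, k ≠ 0 ∧ D.f₂ k k = 0 ∧ D.f₂ w k = 0 ∧ D.ctr k X = 0) :
    ∀ (k : ℕ), ∀ g ∈ M, ∀ w₀ w, w₀ ≠ 0 → D.f₂ w₀ w₀ = 0 → D.f₂ w w = 0 →
      finrank F V₁ ≤ finrank F ↥(D.img g w₀ ⊓ D.memb w) + k → D.Maps g := by
  intro k
  induction k with
  | zero =>
    intro g hg w₀ w hw₀ hww₀ hww hle
    have h2 : D.img g w₀ ≤ D.memb w := inf_eq_left.1 (Submodule.eq_of_le_of_finrank_le inf_le_left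
      (by rw [finrank_img g hw₀]; omega))
    obtain ⟨u₀, hu₀⟩ := exists_ne_zero_V₁ hM
    refine maps_of_image hM hsc hg hw₀ hww₀ (fun h0 => hu₀ (D.ten_eq_zero hw₀ (mulVec_injective g ?_))) hww
      fun u => h2 (mem_img.2 ⟨u, rfl⟩)
    have h3 := h2 (mem_img.2 ⟨u₀, rfl⟩)
    rw [h0, D.memb_zero, Submodule.mem_bot] at h3
    simpa using h3
  | succ k ih =>
    intro g hg w₀ w hw₀ hww₀ hww hle
    by_contra hnm
    set C := D.img g w₀ ⊓ D.memb w
    obtain ⟨X, hX, hXw⟩ : ∃ X ∈ D.img g w₀, X ∉ D.memb w := SetLike.not_le_iff_exists.1 fun h => hnm <|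
      ih g hg w₀ w hw₀ hww₀ hww (by rw [inf_eq_left.2 h, finrank_img g hw₀]; omega)
    obtain ⟨k', hk', hkk, hwk, hkX⟩ := hker X w hww
    obtain ⟨ε, hε, hR⟩ := hM.root
    obtain ⟨x, hx, hxY⟩ := hR k' hkk
    set h := g⁻¹ * x * g
    have hh : h ∈ M := M.mul_mem (M.mul_mem (M.inv_mem hg) hx) hg
    have hgh : ∀ Y, (g : Matrix ι ι F) *ᵥ ((h : Matrix ι ι F) *ᵥ Y) = (x : Matrix ι ι F) *ᵥ ((g : Matrix ι ι F) *ᵥ Y) := by
      intro Y; simp only [h, mul_mulVec, mulVec_inv]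
    set P := C ⊔ Submodule.span F {X}
    have hP : ∀ Y ∈ P, D.ctr k' Y = 0 := by
      intro Y hY
      refine (show P ≤ LinearMap.ker (D.ctr k') from sup_le (fun Z hZ => ?_)
        ((Submodule.span_singleton_le_iff_mem _ _).2 hkX)) hY
      obtain ⟨u, rfl⟩ := D.mem_memb.1 hZ.2
      rw [LinearMap.mem_ker, D.ctr_ten, hwk, zero_smul]
    have hfix : ∀ Y ∈ P, (x : Matrix ι ι F) *ᵥ Y = Y := fun Y hY => by
      simp [hxY, hP Y hY]
    have hPle : P ≤ D.img g w₀ := sup_le inf_le_left ((Submodule.span_singleton_le_iff_mem _ _).2 hX)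
    have hlt : C < P := lt_of_le_of_ne le_sup_left fun he => hXw
      (he.symm ▸ (Submodule.mem_sup_right (Submodule.mem_span_singleton_self X) : X ∈ P) : X ∈ C).2
    have hbig : P.map ((g⁻¹ : GL ι F) : Matrix ι ι F).mulVecLin ≤ D.img h w₀ ⊓ D.memb w₀ := by
      rintro _ ⟨Y, hY, rfl⟩
      obtain ⟨u, hu⟩ := mem_img.1 (hPle hY)
      have h1 : (h : Matrix ι ι F) *ᵥ D.ten u w₀ = D.ten u w₀ := mulVec_injective g (by
        simp only [hgh, hu, hfix Y hY])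
      rw [Matrix.mulVecLin_apply, ← hu, inv_mulVec]
      exact ⟨mem_img.2 ⟨u, h1⟩, D.ten_mem_memb _ _⟩
    have hfin : finrank F C < finrank F ↥(D.img h w₀ ⊓ D.memb w₀) :=
      lt_of_lt_of_le ((Submodule.finrank_lt_finrank_of_lt hlt).trans_eq
        (Submodule.equivMapOfInjective _ (mulVec_injective g⁻¹) _).finrank_eq)
        (Submodule.finrank_mono hbig)
    have hmaps := ih h hh w₀ w₀ hw₀ hww₀ hww₀ (by omega)
    exact hnm (maps_of_conj_root hM hsc hdim hg hw₀ hww₀ hk' hkk hx hε hxY hmaps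
      fun h0 => by rw [h0, finrank_bot] at hfin; omega)

/-- The group preserves the tensor decomposition. -/
theorem preserves [Module.Finite F V₁] [Module.Finite F V₂] (hM : D.Hyp M) (hsc : D.OnlyScalars M)
    (hdim : finrank F V₁ < finrank F V₂)
    (hker : ∀ X w, D.f₂ w w = 0 → ∃ k, k ≠ 0 ∧ D.f₂ k k = 0 ∧ D.f₂ w k = 0 ∧ D.ctr k X = 0)
    {g : GL ι F} (hg : g ∈ M) :
    ∃ (α : V₁ ≃ₗ[F] V₁) (β : V₂ →ₗ[F] V₂), ∀ u z, (g : Matrix ι ι F) *ᵥ D.ten u z = D.ten (α u) (β z) := by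
  have h00 : D.f₂ 0 0 = 0 := f₂_zero_left D 0
  obtain ⟨w, hw, hww, -, -, -, -⟩ := hM.conn 0 0 h00 h00
  exact tensor_of_maps hM hsc hg
    (finrank_meet_le hM hsc hdim hker (finrank F V₁) g hg w 0 hw hww h00 (Nat.le_add_left _ _))

end TData

end CfsgLib.FormTensor89
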