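import Cfsg.Agent.FormTensor89.Basic

/-!
Coefficient spaces; with only scalar coefficients an element fixing one member preserves all members.
-/

set_option autoImplicit false
set_option linter.unusedSectionVars false

namespace CfsgLib.FormTensor89

open Module Matrix

variable {ι : Type} [Fintype ι] [DecidableEq ι] {F : Type*} [Field F] {V₁ V₂ : Type*} [AddCommGroup V₁]
  [Module F V₁] [AddCommGroup V₂] [Module F V₂] (D : TData ι F V₁ V₂)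

namespace TData

/-- `τ` is a coefficient of the root groups. -/
def IsT (D : TData ι F V₁ V₂) (M : Subgroup (GL ι F)) (τ : V₁ →ₗ[F] V₁) : Prop :=
  ∀ w, D.f₂ w w = 0 → InM M (D.R τ w)

/-- `α` is a coefficient of the radical. -/
def IsX (D : TData ι F V₁ V₂) (M : Subgroup (GL ι F)) (α : V₁ →ₗ[F] V₁) : Prop :=
  ∀ w z, D.f₂ w w = 0 → D.f₂ z z = 0 → D.f₂ w z = 0 → D.InS M w (α ∘ₗ D.ctr z)

/-- What is used of the group. -/
structure Hyp (D : TData ι F V₁ V₂) (M : Subgroup (GL ι F)) : Prop where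
  iso : ∀ g ∈ M, ∀ X Y, D.B ((g : Matrix ι ι F) *ᵥ X) ((g : Matrix ι ι F) *ᵥ Y) = D.B X Y
  root : ∃ ε : F, ε ≠ 0 ∧ ∀ w, D.f₂ w w = 0 → InM M (D.R (ε • LinearMap.id) w)
  trans₁ : ∀ w w', w ≠ 0 → w' ≠ 0 → D.f₂ w w = 0 → D.f₂ w' w' = 0 →
    ∃ b, D.Lift₂ M b ∧ b w = w'
  ext : ∀ (α : V₁ →ₗ[F] V₁) (w z : V₂), w ≠ 0 → D.f₂ w w = 0 → D.f₂ z z = 0 → D.f₂ w z = 0 →
    z ∉ Submodule.span F {w} → D.InS M w (α ∘ₗ D.ctr z) → D.IsX M α
  span_perp : ∀ w, D.f₂ w w = 0 → ∀ z, D.f₂ w z = 0 →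
    z ∈ Submodule.span F {y | D.f₂ y y = 0 ∧ D.f₂ w y = 0}
  conn : ∀ w w', D.f₂ w w = 0 → D.f₂ w' w' = 0 → ∃ y, y ≠ 0 ∧ D.f₂ y y = 0 ∧ D.f₂ w y = 0 ∧
    D.f₂ w' y = 0 ∧ y ∉ Submodule.span F {w} ∧ y ∉ Submodule.span F {w'}
  scal : ∀ (α : V₁ ≃ₗ[F] V₁) (c : F), c ≠ 0 → (∀ x y, D.f₁ (α x) (α y) = c * D.f₁ x y) →
    ∀ δ : V₁ →ₗ[F] V₁, (∀ a, D.Lift₁ M a → D.Lift₁ M ((α.symm.trans a).trans α) →
      ∃ l : F, ∀ u, δ (a u) - a (δ u) = l • a u) → ∃ l : F, ∀ u, δ u = l • u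
  two : ∃ u v : V₁, D.f₁ u v ≠ 0

/-- All coefficients are scalars. -/
def OnlyScalars (D : TData ι F V₁ V₂) (M : Subgroup (GL ι F)) : Prop :=
  (∀ τ, D.IsT M τ → ∃ c : F, ∀ u, τ u = c • u) ∧ (∀ α, D.IsX M α → ∃ c : F, ∀ u, α u = c • u)

variable {D} {M : Subgroup (GL ι F)}

lemma isT_of_trans₁ (hiso : ∀ g ∈ M, ∀ X Y, D.B ((g : Matrix ι ι F) *ᵥ X) ((g : Matrix ι ι F) *ᵥ Y) = D.B X Y)
    (htr : ∀ w w', w ≠ 0 → w' ≠ 0 → D.f₂ w w = 0 → D.f₂ w' w' = 0 → ∃ b, D.Lift₂ M b ∧ b w = w') {τ : V₁ →ₗ[F] V₁} {w : V₂} (hw : w ≠ 0) (hww : D.f₂ w w = 0)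
    (h : InM M (D.R τ w)) : D.IsT M τ := by
  intro w' hww'
  rcases eq_or_ne w' 0 with rfl | hw'
  · exact (InM.zero M).congr fun X => by simp
  obtain ⟨b, ⟨-, g, hg, hgb⟩, rfl⟩ := htr w w' hw hw' hww hww'
  obtain ⟨r, hr, hrX⟩ := h
  refine ⟨g * r * g⁻¹, M.mul_mem (M.mul_mem hg hr) (M.inv_mem hg), fun X => ?_⟩
  rw [mul_mulVec, mul_mulVec, hrX, mulVec_add, mulVec_inv, R_apply, hgb, R_apply]
  conv_rhs => rw [← mulVec_inv g X, ctr_of_lift₂ (hiso g hg) hgb, mulVec_inv]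

lemma isT_of_inM (hM : D.Hyp M) {τ : V₁ →ₗ[F] V₁} {w : V₂} (hw : w ≠ 0) (hww : D.f₂ w w = 0)
    (h : InM M (D.R τ w)) : D.IsT M τ := isT_of_trans₁ hM.iso hM.trans₁ hw hww h

lemma IsT.sub {τ τ' : V₁ →ₗ[F] V₁} (h : D.IsT M τ) (h' : D.IsT M τ') : D.IsT M (τ - τ') := fun w hw =>
  ((h w hw).add ((h' w hw).neg fun X => D.R_sq hw X) fun X => by
    rw [LinearMap.neg_apply, map_neg, D.R_sq hw, neg_zero]).congr fun X => by
    simp [sub_eq_add_neg]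

lemma InS.conj (hiso : ∀ g ∈ M, ∀ X Y, D.B ((g : Matrix ι ι F) *ᵥ X) ((g : Matrix ι ι F) *ᵥ Y) = D.B X Y) {w : V₂} {φ : (ι → F) →ₗ[F] V₁} (h : D.InS M w φ) {b : V₂ ≃ₗ[F] V₂}
    {g : GL ι F} (hg : g ∈ M) (hgb : ∀ u z, (g : Matrix ι ι F) *ᵥ D.ten u z = D.ten u (b z))
    {φ' : (ι → F) →ₗ[F] V₁}
    (hφ : ∀ X, D.ctr w X = 0 → φ' ((g : Matrix ι ι F) *ᵥ X) = φ X) : D.InS M (b w) φ' := by
  obtain ⟨r, hr, hrw, hrX⟩ := h
  refine ⟨g * r * g⁻¹, M.mul_mem (M.mul_mem hg hr) (M.inv_mem hg), fun u => ?_, fun X hX => ?_⟩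
  · rw [mul_mulVec, mul_mulVec, ← hgb, inv_mulVec, hrw]
  · have hY : D.ctr w (((g⁻¹ : GL ι F) : Matrix ι ι F) *ᵥ X) = 0 := by
      rwa [← ctr_of_lift₂ (hiso g hg) hgb, mulVec_inv]
    have h1 := hφ _ hY
    rw [mulVec_inv] at h1
    rw [mul_mulVec, mul_mulVec, hrX _ hY, mulVec_add, mulVec_inv, hgb, h1]

lemma isX_of_trans (hiso : ∀ g ∈ M, ∀ X Y, D.B ((g : Matrix ι ι F) *ᵥ X) ((g : Matrix ι ι F) *ᵥ Y) = D.B X Y)
    (htr₁ : ∀ w w', w ≠ 0 → w' ≠ 0 → D.f₂ w w = 0 → D.f₂ w' w' = 0 → ∃ b, D.Lift₂ M b ∧ b w = w')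
    (htr₂ : ∀ w z z', w ≠ 0 → D.f₂ w w = 0 → D.f₂ z z = 0 → D.f₂ z' z' = 0 → D.f₂ w z = 0 → D.f₂ w z' = 0 →
      z ∉ Submodule.span F {w} → z' ∉ Submodule.span F {w} →
      ∃ b, D.Lift₂ M b ∧ b w = w ∧ ∃ c : F, b z = z' + c • w) {α : V₁ →ₗ[F] V₁} {w z : V₂} (hw : w ≠ 0) (hww : D.f₂ w w = 0)
    (hzz : D.f₂ z z = 0) (hwz : D.f₂ w z = 0) (hind : z ∉ Submodule.span F {w})
    (h : D.InS M w (α ∘ₗ D.ctr z)) : D.IsX M α := by
  intro w' z' hww' hzz' hwz'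
  rcases eq_or_ne w' 0 with rfl | hw'
  · exact ⟨1, M.one_mem, fun u => by simp, fun X _ => by simp⟩
  by_cases hind' : z' ∈ Submodule.span F {w'}
  · obtain ⟨c, rfl⟩ := Submodule.mem_span_singleton.1 hind'
    exact ⟨1, M.one_mem, fun u => by simp, fun X hX => by simp [D.ctr_smul, hX]⟩
  obtain ⟨b, ⟨hb, g, hg, hgb⟩, rfl⟩ := htr₁ w w' hw hw' hww hww'
  have hz1 : b z ∉ Submodule.span F {b w} := fun hm => hind <| by
    obtain ⟨c, hc⟩ := Submodule.mem_span_singleton.1 hm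
    exact Submodule.mem_span_singleton.2 ⟨c, b.injective (by rw [map_smul, hc])⟩
  obtain ⟨b', ⟨-, g', hg', hgb'⟩, hb'w, c, hb'z⟩ := htr₂ (b w) (b z) z' hw'
    (by rwa [hb]) (by rwa [hb]) hzz' (by rwa [hb]) hwz' hz1 hind'
  have h1 : D.InS M (b w) (α ∘ₗ D.ctr (b z)) := h.conj hiso hg hgb fun X _ => by
    rw [LinearMap.comp_apply, ctr_of_lift₂ (hiso g hg) hgb, LinearMap.comp_apply]
  have h2 : D.InS M (b' (b w)) (α ∘ₗ D.ctr z') := h1.conj hiso hg' hgb' fun X hX => by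
    have h3 := ctr_of_lift₂ (hiso g' hg') hgb' (b w) X
    rw [hb'w, hX] at h3
    rw [LinearMap.comp_apply, LinearMap.comp_apply, ← ctr_of_lift₂ (hiso g' hg') hgb' (b z), hb'z,
      D.ctr_add, D.ctr_smul, h3, smul_zero, add_zero]
  rwa [hb'w] at h2

lemma isX_of_inS (hM : D.Hyp M) {α : V₁ →ₗ[F] V₁} {w z : V₂} (hw : w ≠ 0) (hww : D.f₂ w w = 0)
    (hzz : D.f₂ z z = 0) (hwz : D.f₂ w z = 0) (hind : z ∉ Submodule.span F {w})
    (h : D.InS M w (α ∘ₗ D.ctr z)) : D.IsX M α := hM.ext α w z hw hww hzz hwz hind h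

lemma IsX.sub {α α' : V₁ →ₗ[F] V₁} (h : D.IsX M α) (h' : D.IsX M α') : D.IsX M (α - α') :=
  fun w z hw hz hwz => ((h w z hw hz hwz).sub (h' w z hw hz hwz)).congr fun X _ => by simp

lemma IsX.add {α α' : V₁ →ₗ[F] V₁} (h : D.IsX M α) (h' : D.IsX M α') : D.IsX M (α + α') :=
  fun w z hw hz hwz => ((h w z hw hz hwz).add (h' w z hw hz hwz)).congr fun X _ => by simp

lemma IsX.smul {α : V₁ →ₗ[F] V₁} (h : D.IsX M α) (c : F) : D.IsX M (c • α) :=
  fun w z hw hz hwz => (h w (D.σ c • z) hw (by rw [f₂_smul_right, D.f₂_smul_left, hz, mul_zero, mul_zero])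
    (by rw [f₂_smul_right, hwz, mul_zero])).congr fun X _ => by simp [D.ctr_smul, D.σσ]

/-- Two orthogonal isotropic vectors give the scalar radical element. -/
lemma isX_id (hM : D.Hyp M) : D.IsX M LinearMap.id := by
  obtain ⟨ε, hε, hR⟩ := hM.root
  intro w z hw hz hwz
  have hz' := f₂_comm_zero D hwz
  have hsum : D.f₂ (w + z) (w + z) = 0 := by
    rw [D.f₂_add_left, f₂_add_right, f₂_add_right, hw, hz, hwz, hz', add_zero, add_zero]
  obtain ⟨g₁, h₁, e₁⟩ := hR _ hsum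
  obtain ⟨g₂, h₂, e₂⟩ := (hR w hw).neg fun X => D.R_sq hw X
  obtain ⟨g₃, h₃, e₃⟩ := (hR z hz).neg fun X => D.R_sq hz X
  have hkey : D.InS M w (ε • D.ctr z) := by
    refine ⟨g₁ * g₂ * g₃, M.mul_mem (M.mul_mem h₁ h₂) h₃, fun u => ?_, fun X hX => ?_⟩
    · rw [mul_mulVec, mul_mulVec, e₃, LinearMap.neg_apply, R_apply]
      simp [D.ctr_ten, hwz, hw, e₂, e₁, f₂_add_right]
    · rw [mul_mulVec, mul_mulVec, e₃, LinearMap.neg_apply, e₂, LinearMap.neg_apply, R_apply, R_apply, e₁,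
        R_apply]
      simp [D.ctr_add, hX, D.ctr_ten, hz', hz, map_add, map_smul]
      module
  obtain ⟨g, hg, hgw, hgX⟩ := hkey
  by_cases hε1 : ε = 1
  · subst hε1; exact ⟨g, hg, hgw, fun X hX => by simp [hgX X hX]⟩
  rcases eq_or_ne w 0 with rfl | hw0
  · exact ⟨1, M.one_mem, fun u => by simp, fun X _ => by simp⟩
  by_cases hind : z ∈ Submodule.span F {w}
  · obtain ⟨c, rfl⟩ := Submodule.mem_span_singleton.1 hind
    exact ⟨1, M.one_mem, fun u => by simp, fun X hX => by simp [D.ctr_smul, hX]⟩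
  have h : D.IsX M (ε • LinearMap.id) := isX_of_inS hM hw0 hw hz hwz hind
    ⟨g, hg, hgw, fun X hX => by simp [hgX X hX]⟩
  exact (h.smul ε⁻¹ w z hw hz hwz).congr fun X _ => by simp [smul_smul, hε]

/-- The components of a radical element are coefficients. -/
lemma isX_component (hM : D.Hyp M) {w : V₂} {φ : (ι → F) →ₗ[F] V₁} (h : D.InS M w φ) {y : V₂} (hw : w ≠ 0)
    (hww : D.f₂ w w = 0) (hyy : D.f₂ y y = 0) (hwy : D.f₂ w y = 0) (hind : y ∉ Submodule.span F {w}) :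
    D.IsX M (φ ∘ₗ D.ten.flip y) := by
  obtain ⟨ε, hε, hR⟩ := hM.root
  obtain ⟨r, hr, hrX⟩ := hR y hyy
  obtain ⟨g, hg, hgw, hgX⟩ := id h
  have hy' := f₂_comm_zero D hwy
  have hfix : ∀ u, (r : Matrix ι ι F) *ᵥ D.ten u w = D.ten u w := fun u => by
    simp [hrX, D.ctr_ten, hwy]
  have hctr : ∀ X, D.ctr w ((r : Matrix ι ι F) *ᵥ X) = D.ctr w X := fun X => by
    simp [hrX, D.ctr_ten, hy']
  have h' : D.InS M w (φ ∘ₗ ((r : Matrix ι ι F).mulVecLin)) := by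
    refine ⟨r⁻¹ * g * r, M.mul_mem (M.mul_mem (M.inv_mem hr) hg) hr, fun u => ?_, fun X hX => ?_⟩
    · rw [mul_mulVec, mul_mulVec, hfix, hgw]
      exact mulVec_injective r (by simp only [mulVec_inv, hfix])
    · rw [mul_mulVec, mul_mulVec, hgX _ (by rwa [hctr]), mulVec_add, inv_mulVec]
      congr 1
      exact mulVec_injective r (by simp only [mulVec_inv, hfix]; rfl)
  have h2 := isX_of_inS hM (α := ε • (φ ∘ₗ D.ten.flip y)) hw hww hyy hwy hind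
    ((h'.sub h).congr fun X _ => by simp [hrX])
  have h3 := h2.smul ε⁻¹
  rwa [smul_smul, inv_mul_cancel₀ hε, one_smul] at h3

/-- The semilinear contraction determines membership in the member from isotropic vectors. -/
lemma ctr_zero_of_iso (hM : D.Hyp M) {w : V₂} (hww : D.f₂ w w = 0) {X : ι → F}
    (h : ∀ z, D.f₂ z z = 0 → D.f₂ w z = 0 → D.ctr z X = 0) {z : V₂} (hz : D.f₂ w z = 0) :
    D.ctr z X = 0 := by
  refine Submodule.span_induction (p := fun z _ => D.ctr z X = 0) (fun y hy => h y hy.1 hy.2)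
    (D.ctr_zero X) (fun a b _ _ ha hb => by rw [D.ctr_add, ha, hb, add_zero])
    (fun c a _ ha => by rw [D.ctr_smul, ha, smul_zero]) (hM.span_perp w hww z hz)

/-- Pure vectors at isotropic vectors orthogonal to `w` span the kernel of the contraction at `w`. -/
lemma perp_induction (hM : D.Hyp M) {w : V₂} (hw : w ≠ 0) (hww : D.f₂ w w = 0) {p : (ι → F) → Prop}
    (hp : ∀ u y, D.f₂ y y = 0 → D.f₂ w y = 0 → p (D.ten u y)) (h0 : p 0) (hadd : ∀ X Y, p X → p Y → p (X + Y))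
    (hsmul : ∀ (c : F) X, p X → p (c • X)) {X : ι → F} (hX : D.ctr w X = 0) : p X := by
  obtain ⟨v, hv⟩ := D.exists_dual_vec hw
  have hv' : D.f₂ v w ≠ 0 := fun h => by
    rw [D.f₂_comm_zero h] at hv; exact zero_ne_one hv
  let P : (ι → F) →ₗ[F] (ι → F) := LinearMap.id - (D.f₂ v w)⁻¹ • (D.ten.flip v ∘ₗ D.ctr w)
  suffices h : ∀ Y, p (P Y) by
    have := h X
    simpa [P, hX] using this
  intro Y
  have hY : Y ∈ Submodule.span F {X | ∃ u z, D.ten u z = X} := by rw [D.ten_span]; trivial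
  refine Submodule.span_induction (p := fun Y _ => p (P Y)) (fun x hx => ?_) (by simpa using h0)
    (fun a b _ _ ha hb => by rw [map_add]; exact hadd _ _ ha hb)
    (fun c a _ ha => by rw [map_smul]; exact hsmul c _ ha) hY
  obtain ⟨u, z, rfl⟩ := hx
  set z' := z - ((D.f₂ v w)⁻¹ * D.f₂ z w) • v with hz'
  have hP : P (D.ten u z) = D.ten u z' := by
    simp [P, hz', D.ctr_ten, smul_smul, map_sub, map_smul, mul_comm]
  have hz'w : D.f₂ z' w = 0 := by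
    rw [hz', sub_eq_add_neg, ← neg_smul, D.f₂_add_left, D.f₂_smul_left]
    field_simp
    ring
  rw [hP]
  exact Submodule.span_induction (p := fun y _ => p (D.ten u y)) (fun y hy => hp u y hy.1 hy.2)
    (by simpa using h0) (fun a b _ _ ha hb => by rw [map_add]; exact hadd _ _ ha hb)
    (fun c a _ ha => by rw [map_smul]; exact hsmul c _ ha) (hM.span_perp w hww z' (f₂_comm_zero D hz'w))

/-- `g` carries the members orthogonal to `w` at isotropic vectors by one map of the first factor. -/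
lemma stab_perp [Module.Finite F V₁] (hM : D.Hyp M) (hsc : D.OnlyScalars M) {g : GL ι F} (hg : g ∈ M) {w : V₂} (hw : w ≠ 0)
    (hww : D.f₂ w w = 0) (hst : ∀ u, (g : Matrix ι ι F) *ᵥ D.ten u w ∈ D.memb w) :
    ∃ α : V₁ ≃ₗ[F] V₁, (∀ u, (g : Matrix ι ι F) *ᵥ D.ten u w = D.ten (α u) w) ∧
      ∀ y, D.f₂ y y = 0 → D.f₂ w y = 0 → ∃ y', ∀ u, (g : Matrix ι ι F) *ᵥ D.ten u y = D.ten (α u) y' := by
  obtain ⟨v₀, hv₀⟩ := D.exists_dual_vec hw
  have hv₀' : D.f₂ v₀ w ≠ 0 := fun h => by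
    rw [D.f₂_comm_zero h] at hv₀; exact zero_ne_one hv₀
  -- the action on the member
  let α₀ : V₁ →ₗ[F] V₁ := D.ctr v₀ ∘ₗ (g : Matrix ι ι F).mulVecLin ∘ₗ D.ten.flip w
  have hgA : ∀ u, (g : Matrix ι ι F) *ᵥ D.ten u w = D.ten (α₀ u) w := fun u => by
    obtain ⟨u', hu'⟩ := D.mem_memb.1 (hst u)
    rw [show α₀ u = D.ctr v₀ ((g : Matrix ι ι F) *ᵥ D.ten u w) from rfl, ← hu', D.ctr_ten, hv₀, one_smul]
  have hinj : Function.Injective α₀ := fun u u' h => D.ten_left_injective hw <| mulVec_injective g (by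
    simp only [hgA, h])
  let α := LinearEquiv.ofInjectiveEndo α₀ hinj
  have hα : ∀ u, α u = α₀ u := fun u => rfl
  refine ⟨α, fun u => hgA u, ?_⟩
  obtain ⟨ε, hε, hR⟩ := hM.root
  -- similitude
  obtain ⟨κ, hκ0, hκ⟩ : ∃ κ : F, κ ≠ 0 ∧ ∀ X, D.ctr w ((g : Matrix ι ι F) *ᵥ X) = κ • α (D.ctr w X) := by
    let μ : V₁ →ₗ[F] V₁ := ε • (α.toLinearMap ∘ₗ D.ctr w ∘ₗ
      ((g⁻¹ : GL ι F) : Matrix ι ι F).mulVecLin ∘ₗ D.ten.flip v₀)
    have hμ : InM M (D.ten.flip w ∘ₗ (ε • α.toLinearMap) ∘ₗ D.ctr w ∘ₗ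
        ((g⁻¹ : GL ι F) : Matrix ι ι F).mulVecLin) := by
      obtain ⟨r, hr, hrX⟩ := hR w hww
      refine ⟨g * r * g⁻¹, M.mul_mem (M.mul_mem hg hr) (M.inv_mem hg), fun X => ?_⟩
      rw [mul_mulVec, mul_mulVec, hrX, mulVec_add, mulVec_inv, R_apply, hgA]
      simp [hα]
    have hker : ∀ X, D.ctr w X = 0 → D.ctr w (((g⁻¹ : GL ι F) : Matrix ι ι F) *ᵥ X) = 0 := fun X hX =>
      D.f₁_nondeg _ fun u => by
        rw [← D.B_ctr, ← hM.iso g hg, mulVec_inv, hgA, D.B_ctr, hX]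
        simpa using D.f₁_smul_left 0 0 (α₀ u)
    have hfac : ∀ X, D.ctr w (((g⁻¹ : GL ι F) : Matrix ι ι F) *ᵥ X)
        = (D.f₂ v₀ w)⁻¹ • D.ctr w (((g⁻¹ : GL ι F) : Matrix ι ι F) *ᵥ D.ten (D.ctr w X) v₀) := fun X => by
      have := hker (X - (D.f₂ v₀ w)⁻¹ • D.ten (D.ctr w X) v₀) (by
        rw [map_sub, map_smul, D.ctr_ten, smul_smul, inv_mul_cancel₀ hv₀', one_smul, sub_self])
      rwa [mulVec_sub, mulVec_smul, map_sub, map_smul, sub_eq_zero] at this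
    have hT : D.IsT M ((D.f₂ v₀ w)⁻¹ • μ) := isT_of_inM hM hw hww (hμ.congr fun X => by
      simp only [R_apply, LinearMap.comp_apply, LinearMap.smul_apply, μ, Matrix.mulVecLin_apply,
        LinearMap.flip_apply, LinearEquiv.coe_coe]
      rw [hfac X, map_smul α, smul_comm])
    obtain ⟨c, hc⟩ := hsc.1 _ hT
    have hc' : ∀ X, ε • α (D.ctr w (((g⁻¹ : GL ι F) : Matrix ι ι F) *ᵥ X)) = c • D.ctr w X := fun X => by
      rw [hfac X, map_smul, smul_comm, ← hc]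
      rfl
    have hc0 : c ≠ 0 := by
      rintro rfl
      obtain ⟨u, v, huv⟩ := hM.two
      have h1 := hc' ((g : Matrix ι ι F) *ᵥ D.ten u v₀)
      rw [inv_mulVec, zero_smul, D.ctr_ten, map_smul, smul_smul, smul_eq_zero, LinearEquiv.map_eq_zero_iff] at h1
      rcases h1 with h1 | h1
      · exact mul_ne_zero hε hv₀' h1
      · exact huv (by rw [h1]; simpa using D.f₁_smul_left 0 0 v)
    refine ⟨c⁻¹ * ε, mul_ne_zero (inv_ne_zero hc0) hε, fun X => ?_⟩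
    rw [← smul_smul]
    have h1 := hc' ((g : Matrix ι ι F) *ᵥ X)
    rw [inv_mulVec] at h1
    rw [h1, smul_smul, inv_mul_cancel₀ hc0, one_smul]
  have hsim : ∀ x y, D.f₁ (α x) (α y) = κ⁻¹ * D.f₁ x y := by
    intro x y
    have h := hM.iso g hg (D.ten x v₀) (D.ten y w)
    rw [hgA, D.B_ctr, hκ, D.B_ctr, D.ctr_ten, map_smul, D.f₁_smul_left, D.f₁_smul_left,
      D.f₁_smul_left] at h
    rw [← hα] at h
    exact mul_left_cancel₀ hv₀' (mul_left_cancel₀ hκ0 (by rw [h, mul_left_comm (D.f₂ v₀ w), ← mul_assoc,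
      mul_inv_cancel₀ hκ0, one_mul]))
  -- the action modulo the member
  intro y hy hwy
  by_cases hind : y ∈ Submodule.span F {w}
  · obtain ⟨c, rfl⟩ := Submodule.mem_span_singleton.1 hind
    exact ⟨c • w, fun u => by rw [map_smul, mulVec_smul, hgA, map_smul]; rfl⟩
  obtain ⟨u₀, hu₀⟩ : ∃ u : V₁, u ≠ 0 := by
    obtain ⟨u, v, huv⟩ := hM.two
    exact ⟨u, fun h => huv (by rw [h]; simpa using D.f₁_smul_left 0 0 v)⟩
  obtain ⟨φ, hφ⟩ : ∃ φ : V₁ →ₗ[F] F, φ (α u₀) = 1 := by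
    obtain ⟨f, hf⟩ := Module.Projective.exists_dual_ne_zero F (x := α u₀) (by simpa using hu₀)
    exact ⟨(f (α u₀))⁻¹ • f, by simp [hf]⟩
  -- images modulo the member of any isotropic vector orthogonal to `w`
  have hmod : ∀ y, D.f₂ y y = 0 → D.f₂ w y = 0 → ∀ u, ∃ γ, (g : Matrix ι ι F) *ᵥ D.ten u y =
      D.ten (α u) (D.cut φ ((g : Matrix ι ι F) *ᵥ D.ten u₀ y)) + D.ten γ w := by
    intro y hy hwy u
    set β := D.cut φ ((g : Matrix ι ι F) *ᵥ D.ten u₀ y)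
    suffices h : (g : Matrix ι ι F) *ᵥ D.ten u y - D.ten (α u) β ∈ D.memb w by
      obtain ⟨γ, hγ⟩ := D.mem_memb.1 h
      exact ⟨γ, by rw [hγ]; abel⟩
    refine D.mem_memb_of_ctr hw fun z hz => ctr_zero_of_iso hM hww (fun z hz hwz => ?_) hz
    by_cases hind : y ∈ Submodule.span F {w}
    · obtain ⟨c, rfl⟩ := Submodule.mem_span_singleton.1 hind
      simp [map_smul, mulVec_smul, hgA, D.ctr_ten, hwz, β, D.cut_ctr]
    have hS : D.InS M w (α.symm.toLinearMap ∘ₗ D.ctr z ∘ₗ (g : Matrix ι ι F).mulVecLin) := by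
      obtain ⟨r, hr, hrw, hrX⟩ := isX_id hM w z hww hz hwz
      refine ⟨g⁻¹ * r * g, M.mul_mem (M.mul_mem (M.inv_mem hg) hr) hg, fun u => ?_, fun X hX => ?_⟩
      · rw [mul_mulVec, mul_mulVec, hgA, hrw, ← hgA, inv_mulVec]
      · have h0 : D.ctr w ((g : Matrix ι ι F) *ᵥ X) = 0 := by rw [hκ, hX, map_zero, smul_zero]
        refine mulVec_injective g ?_
        simp only [mul_mulVec, mulVec_inv, hrX _ h0, mulVec_add, hgA, ← hα]
        simp
    obtain ⟨l, hl⟩ := hsc.2 _ (isX_component hM hS hw hww hy hwy hind)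
    have hl' : ∀ u, D.ctr z ((g : Matrix ι ι F) *ᵥ D.ten u y) = l • α u := fun u => by
      have h := congrArg α (hl u)
      simpa using h
    rw [map_sub, D.ctr_ten, D.cut_ctr, hl', hl', map_smul, hφ, smul_eq_mul, mul_one, sub_self]
  set β := D.cut φ ((g : Matrix ι ι F) *ᵥ D.ten u₀ y)
  let γ : V₁ →ₗ[F] V₁ :=
    D.ctr v₀ ∘ₗ ((g : Matrix ι ι F).mulVecLin ∘ₗ D.ten.flip y - D.ten.flip β ∘ₗ α.toLinearMap)
  have hgy : ∀ u, (g : Matrix ι ι F) *ᵥ D.ten u y = D.ten (α u) β + D.ten (γ u) w := fun u => by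
    obtain ⟨c, hc⟩ := hmod y hy hwy u
    have : γ u = c := by simp [γ, hc, D.ctr_ten, hv₀, β]
    rw [hc, this]
  have hβw : D.f₂ β w = 0 := by
    have h : D.ctr w ((g : Matrix ι ι F) *ᵥ D.ten u₀ y) = 0 := by
      rw [hκ, D.ctr_ten, f₂_comm_zero D hwy, zero_smul, map_zero, smul_zero]
    rw [hgy, map_add, D.ctr_ten, D.ctr_ten, hww, zero_smul, add_zero, smul_eq_zero,
      LinearEquiv.map_eq_zero_iff] at h
    exact h.resolve_right hu₀
  have hββ : D.f₂ β β = 0 := by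
    obtain ⟨u, v, huv⟩ := hM.two
    have h := hM.iso g hg (D.ten u y) (D.ten v y)
    rw [hgy v, D.B_add_right, D.B_ctr, D.B_ctr, D.B_ctr, D.ctr_ten, hy, hgy, map_add, map_add, D.ctr_ten,
      D.ctr_ten, D.ctr_ten, D.ctr_ten, hβw, hww, f₂_comm_zero D hβw, zero_smul, zero_smul, add_zero,
      add_zero, D.f₁_smul_left, hsim, zero_smul] at h
    have h0 : D.f₁ 0 (γ v) = 0 := by simpa using D.f₁_smul_left 0 0 (γ v)
    have h0' : D.f₁ 0 v = 0 := by simpa using D.f₁_smul_left 0 0 v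
    rw [h0, h0', add_zero, mul_eq_zero] at h
    refine h.resolve_right fun h => huv ((mul_eq_zero.1 h).resolve_left (inv_ne_zero hκ0))
  have hβind : β ∉ Submodule.span F {w} := by
    intro hm
    obtain ⟨c, hc⟩ := Submodule.mem_span_singleton.1 hm
    have hgu : (g : Matrix ι ι F) *ᵥ D.ten u₀ y ∈ D.memb w := by
      rw [hgy, ← hc, map_smul]
      exact add_mem (Submodule.smul_mem _ _ (D.ten_mem_memb _ _)) (D.ten_mem_memb _ _)
    obtain ⟨u', hu'⟩ := D.mem_memb.1 hgu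
    obtain ⟨u₁, rfl⟩ := α.surjective u'
    have heq : D.ten u₁ w = D.ten u₀ y := mulVec_injective g (by simp only [hgA, ← hα, hu'])
    obtain ⟨f, hf⟩ := Module.Projective.exists_dual_ne_zero F hu₀
    refine hind (Submodule.mem_span_singleton.2 ⟨(f u₀)⁻¹ * f u₁,
      sub_eq_zero.1 (D.f₂_nondeg _ fun z => ?_)⟩)
    have h1 := congrArg (fun X => f (D.ctr z X)) heq
    simp only [D.ctr_ten, map_smul, smul_eq_mul] at h1
    rw [show ((f u₀)⁻¹ * f u₁) • w - y = ((f u₀)⁻¹ * f u₁) • w + (-1 : F) • y by rw [neg_one_smul, sub_eq_add_neg],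
      D.f₂_add_left, D.f₂_smul_left, D.f₂_smul_left]
    field_simp
    linear_combination h1
  -- the unipotent part is a scalar
  have hcomm : ∀ a, D.Lift₁ M a → D.Lift₁ M ((α.symm.trans a).trans α) → ∃ c : F, ∀ u, α.symm (γ (a u)) - a (α.symm (γ u)) = c • a u := by
    intro a ha ha'
    obtain ⟨-, r', hr', hr'X⟩ := ha'
    obtain ⟨-, r, hr, hrX⟩ := ha
    set k := r'⁻¹ * g * r * g⁻¹
    have hk : k ∈ M := M.mul_mem (M.mul_mem (M.mul_mem (M.inv_mem hr') hg) hr) (M.inv_mem hg)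
    set a' := (α.symm.trans a).trans α
    have hr'i : ∀ u z, ((r'⁻¹ : GL ι F) : Matrix ι ι F) *ᵥ D.ten u z = D.ten (a'.symm u) z :=
      fun u z => mulVec_injective r' (by simp only [mulVec_inv, hr'X, LinearEquiv.apply_symm_apply])
    have hkg : ∀ X, (k : Matrix ι ι F) *ᵥ ((g : Matrix ι ι F) *ᵥ X) =
        ((r'⁻¹ : GL ι F) : Matrix ι ι F) *ᵥ ((g : Matrix ι ι F) *ᵥ ((r : Matrix ι ι F) *ᵥ X)) := fun X => by
      rw [← inv_mulVec g X]
      simp only [k, mul_mulVec, mulVec_inv, inv_mulVec]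
    have hkA : ∀ u, (k : Matrix ι ι F) *ᵥ D.ten u w = D.ten u w := fun u => by
      obtain ⟨u, rfl⟩ := α.surjective u
      rw [show D.ten (α u) w = (g : Matrix ι ι F) *ᵥ D.ten u w from (hgA u).symm, hkg, hrX, hgA, hr'i,
        hgA, ← hα, ← hα]
      simp [a']
    have hX : ∀ X, D.ctr w X = 0 → (k : Matrix ι ι F) *ᵥ X - X ∈ D.memb w := by
      intro X hX
      obtain ⟨Z, rfl⟩ : ∃ Z, (g : Matrix ι ι F) *ᵥ Z = X := ⟨_, mulVec_inv g X⟩
      rw [hκ, smul_eq_zero, LinearEquiv.map_eq_zero_iff] at hX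
      refine perp_induction hM hw hww (p := fun Z => (k : Matrix ι ι F) *ᵥ ((g : Matrix ι ι F) *ᵥ Z)
        - (g : Matrix ι ι F) *ᵥ Z ∈ D.memb w) (fun u y' hy' hwy' => ?_) (by simp)
        (fun X Y hX hY => ?_) (fun c X hX => ?_) (hX.resolve_left hκ0)
      · obtain ⟨c, hc⟩ := hmod y' hy' hwy' u
        obtain ⟨c', hc'⟩ := hmod y' hy' hwy' (a u)
        rw [hkg, hrX, hc', hc, mulVec_add, hr'i, hr'i]
        rw [show a'.symm (α (a u)) = α u by simp [a'], add_sub_add_left_eq_sub]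
        exact sub_mem (D.ten_mem_memb _ _) (D.ten_mem_memb _ _)
      · rw [mulVec_add, mulVec_add, add_sub_add_comm]; exact add_mem hX hY
      · rw [mulVec_smul, mulVec_smul, ← smul_sub]; exact Submodule.smul_mem _ c hX
    let ψ : (ι → F) →ₗ[F] V₁ := D.ctr v₀ ∘ₗ ((k : Matrix ι ι F).mulVecLin - LinearMap.id)
    have hS : D.InS M w ψ := ⟨k, hk, hkA, fun X hX' => by
      obtain ⟨u, hu⟩ := D.mem_memb.1 (hX X hX')
      have : ψ X = u := by simp [ψ, ← map_sub, ← hu, D.ctr_ten, hv₀]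
      rw [this, hu]; abel⟩
    obtain ⟨c, hc⟩ := hsc.2 _ (isX_component hM hS hw hww hββ (f₂_comm_zero D hβw) hβind)
    refine ⟨c, fun u => ?_⟩
    have h1 : a'.symm (γ (a u)) - γ u = c • α u := by
      rw [← hc]
      have h2 : (k : Matrix ι ι F) *ᵥ D.ten (α u) β
          = D.ten (α u) β + (D.ten (a'.symm (γ (a u))) w - D.ten (γ u) w) := by
        rw [show D.ten (α u) β = (g : Matrix ι ι F) *ᵥ D.ten u y - D.ten (γ u) w by rw [hgy]; abel,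
          mulVec_sub, hkg, hrX, hgy, hgy, mulVec_add, hr'i, hr'i, hkA]
        rw [show a'.symm (α (a u)) = α u by simp [a']]
        abel
      simp [ψ, h2, D.ctr_ten, hv₀]
    have h3 := congrArg (fun x => a (α.symm x)) h1
    simpa [a', map_sub, map_smul] using h3
  obtain ⟨c, hc⟩ := hM.scal α κ⁻¹ (inv_ne_zero hκ0) hsim (α.symm.toLinearMap ∘ₗ γ) hcomm
  refine ⟨β + c • w, fun u => ?_⟩
  have h := congrArg α (hc u)
  simp only [LinearMap.comp_apply, LinearEquiv.coe_coe, LinearEquiv.apply_symm_apply, map_smul] at h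
  rw [hgy, h, map_add, map_smul (D.ten (α u)), LinearMap.map_smul₂]

end TData

end CfsgLib.FormTensor89
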