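import Cfsg.Agent.FormTensor89.Preserve

/-!
Two symplectic factors: transvections of both factors give everything the engine uses.
-/

set_option autoImplicit false
set_option linter.unusedSectionVars false

namespace CfsgLib.FormTensor89

open Module Matrix

variable {ι : Type} [Fintype ι] [DecidableEq ι] {F : Type*} [Field F] {V₁ V₂ : Type*} [AddCommGroup V₁]
  [Module F V₁] [AddCommGroup V₂] [Module F V₂]

namespace TData

/-- Both forms are alternating and `M` contains the transvections of both factors. -/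
structure Symp (D : TData ι F V₁ V₂) (M : Subgroup (GL ι F)) : Prop where
  σ_id : ∀ a, D.σ a = a
  alt₁ : ∀ u, D.f₁ u u = 0
  alt₂ : ∀ z, D.f₂ z z = 0
  iso : ∀ g ∈ M, ∀ X Y, D.B ((g : Matrix ι ι F) *ᵥ X) ((g : Matrix ι ι F) *ᵥ Y) = D.B X Y
  t₁ : ∀ a c, ∃ g ∈ M, ∀ u z, (g : Matrix ι ι F) *ᵥ D.ten u z = D.ten (u + (c * D.f₁ u a) • a) z
  t₂ : ∀ w c, ∃ g ∈ M, ∀ u z, (g : Matrix ι ι F) *ᵥ D.ten u z = D.ten u (z + (c * D.f₂ z w) • w)

variable {D : TData ι F V₁ V₂} {M : Subgroup (GL ι F)} (hS : D.Symp M)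

section
include hS

lemma smul_right₁ (c : F) (v x : V₁) : D.f₁ v (c • x) = c * D.f₁ v x := by rw [D.f₁_smul_right, hS.σ_id]

lemma smul_right₂ (c : F) (v x : V₂) : D.f₂ v (c • x) = c * D.f₂ v x := by rw [f₂_smul_right, hS.σ_id]

lemma skew₁ (x y : V₁) : D.f₁ x y = - D.f₁ y x := by
  have h := hS.alt₁ (x + y)
  rw [D.f₁_add_left, D.f₁_add_right, D.f₁_add_right, hS.alt₁, hS.alt₁] at h
  linear_combination h

lemma skew₂ (x y : V₂) : D.f₂ x y = - D.f₂ y x := by
  have h := hS.alt₂ (x + y)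
  rw [D.f₂_add_left, f₂_add_right, f₂_add_right, hS.alt₂, hS.alt₂] at h
  linear_combination h

end

/-- The functional `u ↦ f₁(u, a)`. -/
def lf₁ (D : TData ι F V₁ V₂) (a : V₁) : V₁ →ₗ[F] F where
  toFun u := D.f₁ u a
  map_add' x y := D.f₁_add_left x y a
  map_smul' c x := D.f₁_smul_left c x a

@[simp] lemma lf₁_apply (D : TData ι F V₁ V₂) (a u : V₁) : D.lf₁ a u = D.f₁ u a := rfl

/-- The functional `z ↦ f₂(z, w)`. -/
def lf₂ (D : TData ι F V₁ V₂) (w : V₂) : V₂ →ₗ[F] F where
  toFun z := D.f₂ z w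
  map_add' x y := D.f₂_add_left x y w
  map_smul' c x := D.f₂_smul_left c x w

@[simp] lemma lf₂_apply (D : TData ι F V₁ V₂) (w z : V₂) : D.lf₂ w z = D.f₂ z w := rfl

/-- The map `u ↦ f₁(u, b) a`. -/
def rk (D : TData ι F V₁ V₂) (a b : V₁) : V₁ →ₗ[F] V₁ := (D.lf₁ b).smulRight a

@[simp] lemma rk_apply (D : TData ι F V₁ V₂) (a b u : V₁) : D.rk a b u = D.f₁ u b • a := rfl

/-- The coefficient of the root element of the line spanned by `a` and `b`. -/
def θ (D : TData ι F V₁ V₂) (a b : V₁) : V₁ →ₗ[F] V₁ := D.rk a b - D.rk b a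

lemma θ_apply (D : TData ι F V₁ V₂) (a b u : V₁) : D.θ a b u = D.f₁ u b • a - D.f₁ u a • b := rfl

section
include hS

lemma ctr_add' (c : F) (z z' : V₂) (X : ι → F) : D.ctr (z + c • z') X = D.ctr z X + c • D.ctr z' X := by
  rw [D.ctr_add, D.ctr_smul, hS.σ_id]

/-- A transvection of the first factor. -/
lemma exists_t₁ (a : V₁) (c : F) :
    ∃ t : V₁ ≃ₗ[F] V₁, D.Lift₁ M t ∧ ∀ u, t u = u + (c * D.f₁ u a) • a := by
  have h : (c • D.lf₁ a) a = 0 := by simp [hS.alt₁]
  refine ⟨LinearEquiv.transvection h, ⟨fun x y => ?_, ?_⟩, fun u => ?_⟩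
  · simp [LinearMap.transvection.apply, D.f₁_add_left, D.f₁_add_right, D.f₁_smul_left, smul_right₁ hS,
      hS.alt₁]
    rw [skew₁ hS a y]; ring
  · obtain ⟨g, hg, hgX⟩ := hS.t₁ a c
    exact ⟨g, hg, fun u z => by simp [hgX, LinearMap.transvection.apply]⟩
  · simp [LinearMap.transvection.apply]

/-- A transvection of the second factor. -/
lemma exists_t₂ (w : V₂) (c : F) :
    ∃ t : V₂ ≃ₗ[F] V₂, D.Lift₂ M t ∧ ∀ z, t z = z + (c * D.f₂ z w) • w := by
  have h : (c • D.lf₂ w) w = 0 := by simp [hS.alt₂]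
  refine ⟨LinearEquiv.transvection h, ⟨fun x y => ?_, ?_⟩, fun u => ?_⟩
  · simp [LinearMap.transvection.apply, D.f₂_add_left, f₂_add_right, D.f₂_smul_left, smul_right₂ hS,
      hS.alt₂]
    rw [skew₂ hS w y]; ring
  · obtain ⟨g, hg, hgX⟩ := hS.t₂ w c
    exact ⟨g, hg, fun u z => by simp [hgX, LinearMap.transvection.apply]⟩
  · simp [LinearMap.transvection.apply]

/-- One transvection moves `a` to `a'` and fixes what is orthogonal to their difference. -/
lemma exists_move₁ {a a' : V₁} (h : D.f₁ a a' ≠ 0) :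
    ∃ t : V₁ ≃ₗ[F] V₁, D.Lift₁ M t ∧ t a = a' ∧ ∀ u, D.f₁ u a' = D.f₁ u a → t u = u := by
  obtain ⟨t, ht, htu⟩ := exists_t₁ hS (a' - a) (D.f₁ a a')⁻¹
  have hsub : ∀ u, D.f₁ u (a' - a) = D.f₁ u a' - D.f₁ u a := fun u => by
    rw [eq_sub_iff_add_eq, ← D.f₁_add_right, sub_add_cancel]
  refine ⟨t, ht, ?_, fun u hu => ?_⟩
  · rw [htu, hsub, hS.alt₁, sub_zero, inv_mul_cancel₀ h, one_smul, add_sub_cancel]
  · rw [htu, hsub, hu, sub_self, mul_zero, zero_smul, add_zero]

/-- One transvection moves `z` to `z'` and fixes what is orthogonal to their difference. -/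
lemma exists_move₂ {z z' : V₂} (h : D.f₂ z z' ≠ 0) :
    ∃ t : V₂ ≃ₗ[F] V₂, D.Lift₂ M t ∧ t z = z' ∧ ∀ u, D.f₂ u z' = D.f₂ u z → t u = u := by
  obtain ⟨t, ht, htu⟩ := exists_t₂ hS (z' - z) (D.f₂ z z')⁻¹
  refine ⟨t, ht, ?_, fun u hu => ?_⟩
  · rw [htu, f₂_sub_right, hS.alt₂, sub_zero, inv_mul_cancel₀ h, one_smul, add_sub_cancel]
  · rw [htu, f₂_sub_right, hu, sub_self, mul_zero, zero_smul, add_zero]

lemma lift₂_trans {b b' : V₂ ≃ₗ[F] V₂} (h : D.Lift₂ M b) (h' : D.Lift₂ M b') :
    D.Lift₂ M (b.trans b') := by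
  obtain ⟨hb, g, hg, hgX⟩ := h
  obtain ⟨hb', g', hg', hgX'⟩ := h'
  exact ⟨fun x y => by simp [hb', hb], g' * g, M.mul_mem hg' hg, fun u z => by
    rw [mul_mulVec, hgX, hgX']; rfl⟩

/-- Any linear functional vanishing somewhere is a pairing. -/
lemma exists_rep [Module.Finite F V₂] (l : V₂ →ₗ[F] F) : ∃ x, ∀ z, D.f₂ z x = l z := by
  let Φ : V₂ →ₗ[F] Module.Dual F V₂ :=
    { toFun := D.lf₂
      map_add' := fun x y => LinearMap.ext fun z => by simp [f₂_add_right]
      map_smul' := fun c x => LinearMap.ext fun z => by simp [smul_right₂ hS] }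
  have hinj : Function.Injective Φ := LinearMap.ker_eq_bot.1 <| LinearMap.ker_eq_bot'.2 fun x hx =>
    D.f₂_nondeg x fun z => by
      rw [skew₂ hS, show D.f₂ z x = 0 from LinearMap.congr_fun hx z, neg_zero]
  obtain ⟨x, hx⟩ := (LinearMap.injective_iff_surjective_of_finrank_eq_finrank
    (Subspace.dual_finrank_eq (K := F) (V := V₂)).symm).1 hinj l
  exact ⟨x, fun z => by rw [← hx]; rfl⟩

/-- A vector orthogonal to given ones pairing to one with a vector outside their span. -/
lemma exists_pair [Module.Finite F V₂] {S : Set V₂} {v : V₂} (hv : v ∉ Submodule.span F S) :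
    ∃ x, D.f₂ v x = 1 ∧ ∀ s ∈ S, D.f₂ s x = 0 := by
  obtain ⟨l, hl, hker⟩ := Submodule.exists_le_ker_of_notMem hv
  obtain ⟨x, hx⟩ := exists_rep hS ((l v)⁻¹ • l)
  exact ⟨x, by simp [hx, hl], fun s hs => by simp [hx, show l s = 0 from hker (Submodule.subset_span hs)]⟩

/-- A vector orthogonal to two given ones and outside their span. -/
lemma exists_perp_avoid [Module.Finite F V₂] (h5 : 5 ≤ finrank F V₂) (w z : V₂) :
    ∃ c, D.f₂ c w = 0 ∧ D.f₂ c z = 0 ∧ c ∉ Submodule.span F {w, z} := by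
  classical
  by_contra! h
  set l := (D.lf₂ w).prod (D.lf₂ z)
  have h1 := LinearMap.finrank_range_add_finrank_ker l
  have h2 : finrank F (LinearMap.range l) ≤ 2 := (Submodule.finrank_le _).trans (by simp)
  have h3 : finrank F (Submodule.span F ({w, z} : Set V₂)) ≤ 2 := by
    have h4 := finrank_span_finset_le_card (R := F) ({w, z} : Finset V₂)
    rw [Set.finrank, Finset.coe_pair] at h4
    exact h4.trans Finset.card_le_two
  have h5' := Submodule.finrank_mono (s := LinearMap.ker l) (t := Submodule.span F ({w, z} : Set V₂))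
    fun c hc => h c (congrArg Prod.fst (LinearMap.mem_ker.1 hc)) (congrArg Prod.snd (LinearMap.mem_ker.1 hc))
  omega

/-- A product of transvections fixing `w` moves `z` to `z'`. -/
lemma exists_trans₂ [Module.Finite F V₂] {w z z' : V₂} (hz : D.f₂ w z = 0) (hz' : D.f₂ w z' = 0)
    (hzw : z ∉ Submodule.span F {w}) (hzw' : z' ∉ Submodule.span F {w}) :
    ∃ b, D.Lift₂ M b ∧ b w = w ∧ b z = z' := by
  obtain ⟨y, hwy, hzy, hzy'⟩ : ∃ y, D.f₂ w y = 0 ∧ D.f₂ z y ≠ 0 ∧ D.f₂ z' y ≠ 0 := by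
    obtain ⟨x, hx, hxw⟩ := exists_pair hS hzw
    obtain ⟨x', hx', hxw'⟩ := exists_pair hS hzw'
    by_cases h1 : D.f₂ z' x = 0
    · by_cases h2 : D.f₂ z x' = 0
      · exact ⟨x + x', by rw [f₂_add_right, hxw w rfl, hxw' w rfl, add_zero],
          by rw [f₂_add_right, hx, h2, add_zero]; exact one_ne_zero,
          by rw [f₂_add_right, h1, hx', zero_add]; exact one_ne_zero⟩
      · exact ⟨x', hxw' w rfl, h2, by rw [hx']; exact one_ne_zero⟩
    · exact ⟨x, hxw w rfl, by rw [hx]; exact one_ne_zero, h1⟩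
  obtain ⟨t, ht, htz, htf⟩ := exists_move₂ hS hzy
  obtain ⟨t', ht', htz', htf'⟩ := exists_move₂ hS (z := y) (z' := z')
    (by rwa [skew₂ hS, neg_ne_zero])
  refine ⟨t.trans t', lift₂_trans hS ht ht', ?_, ?_⟩
  · rw [LinearEquiv.trans_apply, htf w (by rw [hwy, hz]), htf' w (by rw [hwy, hz'])]
  · rw [LinearEquiv.trans_apply, htz, htz']

/-- A product of transvections moving `w` to `w'`. -/
lemma exists_trans₀ [Module.Finite F V₂] {w w' : V₂} (hw : w ≠ 0) (hw' : w' ≠ 0) :
    ∃ b, D.Lift₂ M b ∧ b w = w' := by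
  obtain ⟨b, hb, -, hbw⟩ := exists_trans₂ hS (w := 0) (f₂_zero_left D w) (f₂_zero_left D w')
    (by simpa using hw) (by simpa using hw')
  exact ⟨b, hb, hbw⟩

/-- An eigenvector everywhere makes a scalar. -/
lemma scalar_of_eigen {δ : V₁ →ₗ[F] V₁} (h : ∀ a, δ a ∈ Submodule.span F {a}) :
    ∃ l : F, ∀ u, δ u = l • u := by
  by_cases hV : ∀ v : V₁, v = 0
  · exact ⟨0, fun u => by rw [hV (δ u), zero_smul]⟩
  push Not at hV
  obtain ⟨v, hv⟩ := hV
  choose c hc using fun a => Submodule.mem_span_singleton.1 (h a)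
  refine ⟨c v, fun u => ?_⟩
  by_cases hu : u ∈ Submodule.span F {v}
  · obtain ⟨k, rfl⟩ := Submodule.mem_span_singleton.1 hu
    rw [map_smul, ← hc v, smul_comm]
  · have e := hc (u + v)
    rw [map_add, ← hc u, ← hc v, smul_add] at e
    have e1 : (c (u + v) - c u) • u = (c v - c (u + v)) • v := by
      rw [sub_smul, sub_smul, sub_eq_sub_iff_add_eq_add, e, add_comm]
    have h1 : c (u + v) = c u := by
      by_contra hne
      exact hu (Submodule.mem_span_singleton.2 ⟨(c (u + v) - c u)⁻¹ * (c v - c (u + v)), by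
        rw [← smul_smul, ← e1, inv_smul_smul₀ (sub_ne_zero.2 hne)]⟩)
    rw [h1, sub_self, zero_smul, eq_comm, smul_eq_zero, sub_eq_zero] at e1
    rw [← hc u, e1.resolve_right hv]

theorem hyp [Finite F] [Module.Finite F V₁] [Module.Finite F V₂] (h1 : 2 ≤ finrank F V₁)
    (hdim : finrank F V₁ + 2 ≤ finrank F V₂) (h5 : 5 ≤ finrank F V₂)
    (hq : 3 ≤ Nat.card F ∨ 3 ≤ finrank F V₁) : D.Hyp M where
  iso := hS.iso
  root := by
    refine ⟨1, one_ne_zero, fun w _ => ?_⟩
    obtain ⟨g, hg, hgX⟩ := hS.t₂ w 1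
    refine ⟨g, hg, fun X => ?_⟩
    refine LinearMap.congr_fun (f := (g : Matrix ι ι F).mulVecLin)
      (g := LinearMap.id + D.R ((1 : F) • LinearMap.id) w) (LinearMap.ext_on D.ten_span ?_) X
    rintro _ ⟨u, z, rfl⟩
    simp [hgX, D.ctr_ten]
  trans₁ w w' hw hw' _ _ := exists_trans₀ hS hw hw'
  ext α w z hw hww hzz hwz hind h :=
    isX_of_trans hS.iso (fun _ _ hw hw' _ _ => exists_trans₀ hS hw hw') (fun _ _ _ _ _ _ _ hz hz' hzw hzw' => by
      obtain ⟨b, hb, hbw, hbz⟩ := exists_trans₂ hS hz hz' hzw hzw'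
      exact ⟨b, hb, hbw, 0, by rw [zero_smul, add_zero, hbz]⟩) hw hww hzz hwz hind h
  span_perp w _ z hz := Submodule.subset_span ⟨hS.alt₂ z, hz⟩
  conn w w' _ _ := by
    obtain ⟨c, hcw, hcw', hc⟩ := exists_perp_avoid hS h5 w w'
    exact ⟨c, fun h => hc (h ▸ zero_mem _), hS.alt₂ c, f₂_comm_zero D hcw, f₂_comm_zero D hcw',
      fun h => hc (Submodule.span_mono (by simp) h), fun h => hc (Submodule.span_mono (by simp) h)⟩
  scal α c hc hα δ hδ := by
    have htwo : ∀ a, a ≠ 0 → δ a ∈ Submodule.span F {a} := by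
      intro a ha
      -- the commutator with a transvection is a multiple of it
      have key : ∀ k : F, ∃ l : F, ∀ u,
          k • (D.f₁ u a • δ a - D.f₁ (δ u) a • a) = l • (u + (k * D.f₁ u a) • a) := by
        intro k
        obtain ⟨t, ht, htu⟩ := exists_t₁ hS a k
        obtain ⟨t', ht', htu'⟩ := exists_t₁ hS (α a) (k / c)
        have he : (α.symm.trans t).trans α = t' := by
          refine LinearEquiv.ext fun u => ?_
          obtain ⟨u, rfl⟩ := α.surjective u
          simp [htu, htu', hα]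
          congr 1
          field_simp
        obtain ⟨l, hl⟩ := hδ t ht (he.symm ▸ ht')
        refine ⟨l, fun u => ?_⟩
        rw [← htu, ← hl u, htu, htu, map_add, map_smul]
        module
      obtain ⟨l, hl⟩ := key 1
      have hl0 : l = 0 := by
        have hl' : ∀ u, D.f₁ u a • δ a - D.f₁ (δ u) a • a = l • (u + D.f₁ u a • a) := fun u => by
          simpa using hl u
        rcases hq with hq | hq
        · obtain ⟨k, hk0, hk1⟩ : ∃ k : F, k ≠ 0 ∧ k ≠ 1 := by
            classical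
            have := Fintype.ofFinite F
            by_contra! h
            have h2 : (Finset.univ : Finset F) ⊆ {0, 1} := fun x _ => by
              by_cases hx : x = 0 <;> simp [hx, h x]
            have h3 := (Finset.card_le_card h2).trans Finset.card_le_two
            rw [Finset.card_univ, ← Nat.card_eq_fintype_card] at h3
            omega
          obtain ⟨m, hm⟩ := key k
          obtain ⟨u, hu⟩ : ∃ u, D.f₁ u a ≠ 0 := by
            by_contra! h; exact ha (D.f₁_nondeg' a h)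
          have e : ∀ v, (k * l - m) • v + ((k * l - m * k) * D.f₁ v a) • a = 0 := fun v => by
            have e1 := hm v
            rw [hl' v] at e1
            rw [sub_smul, sub_mul, sub_smul, sub_add_sub_comm, sub_eq_zero]
            simpa [smul_add, smul_smul, mul_assoc] using e1
          have ea := e a
          rw [hS.alt₁, mul_zero, zero_smul, add_zero, smul_eq_zero, sub_eq_zero] at ea
          have hkm := ea.resolve_right ha
          have eu := e u
          rw [hkm, sub_self, zero_smul, zero_add, smul_eq_zero, mul_eq_zero] at eu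
          rcases (eu.resolve_right ha) with h | h
          · rw [← hkm] at h
            rcases mul_eq_zero.1 (show (k * l) * (1 - k) = 0 by linear_combination h) with h' | h'
            · exact (mul_eq_zero.1 h').resolve_left hk0
            · exact absurd (sub_eq_zero.1 h').symm hk1
          · exact absurd h hu
        · obtain ⟨u, hu, hu0⟩ := Submodule.exists_mem_ne_zero_of_ne_bot
            (LinearMap.ker_ne_bot_of_finrank_lt (f := (D.lf₁ a).prod (D.lf₁ a ∘ₗ δ))
              (by simp; omega))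
          simp only [LinearMap.mem_ker, LinearMap.prod_apply, Prod.ext_iff] at hu
          have e := hl' u
          rw [show D.f₁ u a = 0 from hu.1, show D.f₁ (δ u) a = 0 from hu.2] at e
          simp at e
          exact (smul_eq_zero.1 e.symm).resolve_right hu0
      subst hl0
      obtain ⟨u, hu⟩ : ∃ u, D.f₁ u a ≠ 0 := by
        by_contra! h; exact ha (D.f₁_nondeg' a h)
      have e := hl u
      rw [one_smul, zero_smul, sub_eq_zero] at e
      exact Submodule.mem_span_singleton.2 ⟨(D.f₁ u a)⁻¹ * D.f₁ (δ u) a, by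
        rw [← smul_smul, ← e, inv_smul_smul₀ hu]⟩
    refine scalar_of_eigen hS fun a => ?_
    rcases eq_or_ne a 0 with rfl | ha
    · rw [map_zero]; exact zero_mem _
    · exact htwo a ha
  two := by
    have : Nontrivial V₁ := Module.nontrivial_of_finrank_pos (R := F) (by omega)
    obtain ⟨u, hu⟩ := exists_ne (0 : V₁)
    by_contra! h
    exact hu (D.f₁_nondeg u (h u))

/-- Contractions have isotropic vectors in their kernels. -/
theorem exists_ctr_ker [Finite F] [Module.Finite F V₁] [Module.Finite F V₂]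
    (hdim : finrank F V₁ + 2 ≤ finrank F V₂) (X : ι → F) (w : V₂) (_ : D.f₂ w w = 0) :
    ∃ k, k ≠ 0 ∧ D.f₂ k k = 0 ∧ D.f₂ w k = 0 ∧ D.ctr k X = 0 := by
  let l : V₂ →ₗ[F] F × V₁ :=
    { toFun := fun k => (D.f₂ k w, D.ctr k X)
      map_add' := fun a b => by simp [D.f₂_add_left, D.ctr_add]
      map_smul' := fun c a => by simp [D.f₂_smul_left, D.ctr_smul, hS.σ_id] }
  obtain ⟨k, hk, hk0⟩ := Submodule.exists_mem_ne_zero_of_ne_bot
    (LinearMap.ker_ne_bot_of_finrank_lt (f := l) (by simp; omega))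
  exact ⟨k, hk0, hS.alt₂ k, f₂_comm_zero D (congrArg Prod.fst hk), congrArg Prod.snd hk⟩

end

end TData

end CfsgLib.FormTensor89
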