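import Cfsg.Agent.FormTensor89.Omega
import Cfsg.Agent.FormTensor89.Instance
import Cfsg.Agent.OrthGeo.Parity
import Cfsg.Agent.Aschbacher.OrthEvenMembers

/-!
The stabiliser in `Ω` of a tensor decomposition into two symplectic spaces of different dimensions is maximal.
-/

set_option autoImplicit false
set_option linter.unusedSectionVars false

namespace CfsgLib.FormTensor89

open Module Matrix Cfsg.Geo CfsgLib.OrthGeo

variable {ι : Type} [Fintype ι] [DecidableEq ι] {F : Type*} [Field F] [Finite F]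

lemma even_of_symplectic {k : ℕ} {f : (Fin k → F) → (Fin k → F) → F} (hf : IsSymplecticForm f) : Even k := by
  have hker : LinearMap.ker (bilinOf hf.bilinear) = ⊥ := LinearMap.ker_eq_bot'.2 fun x hx => by
    by_contra h0
    obtain ⟨y, hy⟩ := (hf.nondegenerate x h0).2
    exact hy (LinearMap.congr_fun hx y)
  have := even_rank_of_alt k (bilinOf hf.bilinear) hf.alternating (Module.finrank_fin_fun F)
  rwa [hker, finrank_bot, Module.finrank_fin_fun, Nat.sub_zero] at this

lemma isFactor_of_symplectic {k : ℕ} {f : (Fin k → F) → (Fin k → F) → F} (hf : IsSymplecticForm f) :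
    IsFactor (RingHom.id F) f where
  add_left := hf.bilinear.add_left
  smul_left := hf.bilinear.smul_left
  add_right := hf.bilinear.add_right
  smul_right c v x := hf.bilinear.smul_right c v x
  nondeg x h := by
    by_contra h0
    obtain ⟨y, hy⟩ := (hf.nondegenerate x h0).2
    exact hy (h y)
  nondeg' v h := by
    by_contra h0
    obtain ⟨y, hy⟩ := (hf.nondegenerate v h0).1
    exact hy (h y)

lemma isSymplectic_smul {k : ℕ} {f : (Fin k → F) → (Fin k → F) → F} (hf : IsSymplecticForm f) {c : F}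
    (hc : c ≠ 0) : IsSymplecticForm (fun x y => c * f x y) where
  bilinear :=
    { add_left := fun x y v => by rw [hf.bilinear.add_left, mul_add]
      smul_left := fun d x v => by rw [hf.bilinear.smul_left, mul_left_comm]
      add_right := fun v x y => by rw [hf.bilinear.add_right, mul_add]
      smul_right := fun d v x => by rw [hf.bilinear.smul_right, mul_left_comm] }
  skew v w := by rw [hf.skew v w, mul_neg]
  alternating v := by rw [hf.alternating, mul_zero]
  nondegenerate v hv := by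
    obtain ⟨⟨x, hx⟩, ⟨y, hy⟩⟩ := hf.nondegenerate v hv
    exact ⟨⟨x, mul_ne_zero hc hx⟩, ⟨y, mul_ne_zero hc hy⟩⟩

variable {Q : (ι → F) → F} {n₁ n₂ : ℕ}

/-- The tensor data of the polar form. -/
noncomputable def plusData (hQ : IsNondegenerateQuadraticForm Q) (e : ι ≃ Fin n₁ × Fin n₂) (P : GL ι F)
    {f₁ : (Fin n₁ → F) → (Fin n₁ → F) → F} {f₂ : (Fin n₂ → F) → (Fin n₂ → F) → F} (hf₁ : IsSymplecticForm f₁)
    (hf₂ : IsSymplecticForm f₂)
    (hten : ∀ u z u' z', bform hQ (tenLin e P u z) (tenLin e P u' z') = f₁ u u' * f₂ z z') :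
    TData ι F (Fin n₁ → F) (Fin n₂ → F) :=
  mkData e P (RingHom.id F) (fun _ => rfl) (-1) (by simp) (fun X Y => bform hQ X Y)
    (isFactor_of_symplectic hf₁) (isFactor_of_symplectic hf₂)
    (fun x y => by rw [hf₂.skew x y]; simp)
    (fun X Y Z => by simp only [map_add, LinearMap.add_apply])
    (fun c X Z => by simp only [map_smul, LinearMap.smul_apply, smul_eq_mul])
    (fun X Y Z => map_add _ Y Z) hten

variable (hQ : IsNondegenerateQuadraticForm Q)
include hQ

/-- `Ω` contains the root elements of all alternating coefficients. -/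
lemma inM_omega {V₁ V₂ : Type*} [AddCommGroup V₁] [Module F V₁] [AddCommGroup V₂] [Module F V₂]
    [Module.Finite F V₁] [Module.Finite F V₂] (D : TData ι F V₁ V₂) (hn : 5 ≤ Fintype.card ι)
    (hσ : ∀ a, D.σ a = a) (h₁ : ∀ u, D.f₁ u u = 0) (h₂ : ∀ z, D.f₂ z z = 0)
    (hB : ∀ X Y, D.B X Y = bform hQ X Y) (hpure : ∀ u z, Q (D.ten u z) = 0) (w : V₂) :
    ∀ (k : ℕ) (τ : V₁ →ₗ[F] V₁), (∀ u, D.f₁ u (τ u) = 0) →
      finrank F V₁ ≤ finrank F (LinearMap.ker τ) + k → InM (omegaGL Q) (D.R τ w) := by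
  intro k
  induction k with
  | zero =>
    intro τ _ hk
    have h0 : LinearMap.ker τ = ⊤ := Submodule.eq_top_of_finrank_eq
      (le_antisymm (Submodule.finrank_le _) (by omega))
    exact (InM.zero _).congr fun X => by simp [LinearMap.ker_eq_top.1 h0]
  | succ k ih =>
    intro τ hτ hk
    by_cases h0 : τ = 0
    · exact (InM.zero _).congr fun X => by simp [h0]
    have hsk : ∀ x y, D.f₁ x y = - D.f₁ y x := fun x y => by
      have h := h₁ (x + y)
      rw [D.f₁_add_left, D.f₁_add_right, D.f₁_add_right, h₁, h₁] at h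
      linear_combination h
    have hsr : ∀ (c : F) v x, D.f₁ v (c • x) = c * D.f₁ v x := fun c v x => by rw [D.f₁_smul_right, hσ]
    have hsa : ∀ x y, D.f₁ (τ x) y = D.f₁ x (τ y) := fun x y => by
      have h := hτ (x + y)
      rw [map_add, D.f₁_add_left, D.f₁_add_right, D.f₁_add_right, hτ, hτ] at h
      rw [hsk (τ x) y]
      linear_combination -h
    obtain ⟨v, hv⟩ : ∃ v, τ v ≠ 0 := by
      by_contra! h; exact h0 (LinearMap.ext h)
    obtain ⟨u, hu⟩ : ∃ u, D.f₁ u (τ v) ≠ 0 := by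
      by_contra! h; exact hv (D.f₁_nondeg' _ h)
    set μ := D.f₁ u (τ v) with hμ
    set τ' := τ - μ⁻¹ • ((D.lf₁ (τ v)).smulRight (τ u) - (D.lf₁ (τ u)).smulRight (τ v)) with hτ'
    have hlt : LinearMap.ker τ < LinearMap.ker τ' := by
      refine SetLike.lt_iff_le_and_exists.2 ⟨fun x hx => ?_, v, ?_, fun hm => hv hm⟩
      · rw [LinearMap.mem_ker] at hx ⊢
        have e : ∀ y, D.f₁ x (τ y) = 0 := fun y => by
          rw [← hsa, hx]; simpa using D.f₁_smul_left 0 0 y
        simp [hτ', hx, e]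
      · rw [LinearMap.mem_ker]
        have e1 : D.f₁ v (τ v) = 0 := hτ v
        have e2 : D.f₁ v (τ u) = -μ := by rw [← hsa, hsk, hμ]
        simp [hτ', e1, e2, inv_mul_cancel₀ hu, smul_smul]
    have halt' : ∀ x, D.f₁ x (τ' x) = 0 := fun x => by
      have hsub : ∀ y y' : V₁, D.f₁ x (y - y') = D.f₁ x y - D.f₁ x y' := fun y y' => by
        rw [eq_sub_iff_add_eq, ← D.f₁_add_right, sub_add_cancel]
      simp [hτ', hsub, hsr, hτ x]
      ring_nf
      simp
    have h1 := ih τ' halt' (by have := Submodule.finrank_lt_finrank_of_lt hlt; omega)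
    -- the subtracted part is an Eichler transformation
    set a := μ⁻¹ • τ u
    set b := τ v
    have hU : Q (D.ten a w) = 0 := hpure _ _
    have hbw : ∀ (X : ι → F) (x : V₁), bform hQ X (D.ten x w) = D.f₁ (D.ctr w X) x := fun X x => by
      rw [← hB, D.B_ctr]
    have hW : bform hQ (D.ten a w) (D.ten b w) = 0 := by
      rw [hbw, D.ctr_ten, h₂, zero_smul]; simpa using D.f₁_smul_left 0 0 b
    have h2 : InM (omegaGL Q) (D.R (μ⁻¹ • ((D.lf₁ (τ v)).smulRight (τ u) - (D.lf₁ (τ u)).smulRight (τ v))) w) := by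
      refine ⟨eichler hQ hU hW, eichler_mem_omega hQ hn hU hW, fun X => ?_⟩
      rw [eichler_mulVec hQ, hpure, b_symm hQ (D.ten b w), b_symm hQ (D.ten a w), hbw, hbw]
      simp [a, b, hsr, smul_smul]
      module
    exact (h1.add h2 fun X => D.R_sq (h₂ w) X).congr fun X => by
      simp only [TData.R_apply, LinearMap.add_apply, hτ', LinearMap.sub_apply, map_sub]
      abel

/-- The transvections of both factors lie in the stabiliser. -/
lemma exists_transv (hn : 5 ≤ Fintype.card ι) (h1 : 0 < n₁) (e : ι ≃ Fin n₁ × Fin n₂) (P : GL ι F)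
    {f₁ : (Fin n₁ → F) → (Fin n₁ → F) → F} {f₂ : (Fin n₂ → F) → (Fin n₂ → F) → F} (hf₁ : IsSymplecticForm f₁)
    (hf₂ : IsSymplecticForm f₂)
    (hten : ∀ u z u' z', bform hQ (tenLin e P u z) (tenLin e P u' z') = f₁ u u' * f₂ z z')
    (hpure : ∀ u z, Q (tenLin e P u z) = 0) (w : Fin n₂ → F) (c : F) :
    ∃ g ∈ tensorProductSubgroup n₁ n₂ e P ⊓ omegaGL Q, ∀ u z,
      (g : Matrix ι ι F) *ᵥ tenLin e P u z = tenLin e P u (z + (c * f₂ z w) • w) := by
  set D := plusData hQ e P hf₁ hf₂ hten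
  have halt : ∀ u, D.f₁ u ((c • LinearMap.id : (Fin n₁ → F) →ₗ[F] _) u) = 0 := fun u => by
    show f₁ u (c • u) = 0
    rw [hf₁.bilinear.smul_right, hf₁.alternating, mul_zero]
  obtain ⟨g, hg, hgX⟩ := inM_omega hQ D hn (fun _ => rfl) hf₁.alternating hf₂.alternating
    (fun _ _ => rfl) hpure w _ _ halt (Nat.le_add_left _ _)
  have hgz : ∀ u z, (g : Matrix ι ι F) *ᵥ tenLin e P u z = tenLin e P u (z + (c * f₂ z w) • w) := fun u z => by
    rw [hgX, TData.R_apply, show D.ctr w (tenLin e P u z) = f₂ z w • u from D.ctr_ten w u z]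
    show tenLin e P u z + tenLin e P ((c • LinearMap.id : (Fin n₁ → F) →ₗ[F] _) (f₂ z w • u)) w = _
    simp [map_add, smul_smul, mul_comm]
  have hl : ∀ z, z + (c * f₂ z w) • w
      = (LinearMap.id + (c • (isFactor_of_symplectic hf₂).left w).smulRight w : (Fin n₂ → F) →ₗ[F] _) z :=
    fun z => by simp [IsFactor.left]
  exact ⟨g, ⟨mem_tensor_of_pure h1 e P g (LinearEquiv.refl F _) _ fun u z => by
    rw [hgz, hl]; rfl, hg⟩, hgz⟩

/-- The tensor stabiliser is maximal. -/
theorem symp_tensor_isMaximal (hn : 12 ≤ Fintype.card ι) (h12 : n₁ < n₂)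
    (hex : ¬(Nat.card F = 2 ∧ n₁ = 2)) (e : ι ≃ Fin n₁ × Fin n₂) (P : GL ι F)
    {f₁ : (Fin n₁ → F) → (Fin n₁ → F) → F} {f₂ : (Fin n₂ → F) → (Fin n₂ → F) → F} (hf₁ : IsSymplecticForm f₁)
    (hf₂ : IsSymplecticForm f₂) (hT : IsTensorFormStructure id (QuadraticMap.polar Q) f₁ f₂ e P)
    (hpure : ∀ (u : Fin n₁ → F) (z : Fin n₂ → F),
      Q ((P : Matrix ι ι F) *ᵥ ((fun a : Fin n₁ × Fin n₂ => u a.1 * z a.2) ∘ e)) = 0) :
    IsMaximalIn (omegaGL Q) (tensorProductSubgroup n₁ n₂ e P ⊓ omegaGL Q) := by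
  classical
  obtain ⟨c, hc, hcT⟩ := hT
  set f₁' : (Fin n₁ → F) → (Fin n₁ → F) → F := fun x y => c * f₁ x y
  have hf₁' : IsSymplecticForm f₁' := isSymplectic_smul hf₁ hc
  have hten : ∀ u z u' z', bform hQ (tenLin e P u z) (tenLin e P u' z') = f₁' u u' * f₂ z z' :=
    fun u z u' z' => by
      rw [bform_apply, tenLin_apply, tenLin_apply, hcT, formOfGram_pureTen hf₁.bilinear hf₂.bilinear]
      ring
  have hpure' : ∀ u z, Q (tenLin e P u z) = 0 := hpure
  have he1 := even_of_symplectic hf₁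
  have he2 := even_of_symplectic hf₂
  have hcard := Fintype.card_congr e
  rw [Fintype.card_prod, Fintype.card_fin, Fintype.card_fin] at hcard
  have hn1 : 2 ≤ n₁ := by
    rcases he1 with ⟨k, hk⟩
    rcases Nat.eq_zero_or_pos n₁ with h | h
    · rw [h, zero_mul] at hcard; omega
    · omega
  have hdim : n₁ + 2 ≤ n₂ := by obtain ⟨k, hk⟩ := he1; obtain ⟨l, hl⟩ := he2; omega
  have h5 : 5 ≤ n₂ := by
    by_contra h
    have : n₁ * n₂ ≤ 2 * 4 := Nat.mul_le_mul (by omega) (by omega)
    omega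
  have hq : 3 ≤ Nat.card F ∨ 3 ≤ finrank F (Fin n₁ → F) := by
    rw [Module.finrank_fin_fun]
    have h2 : 2 ≤ Nat.card F := Finite.one_lt_card
    by_cases h : n₁ = 2
    · exact Or.inl (by by_contra h3; exact hex ⟨by omega, h⟩)
    · exact Or.inr (by omega)
  refine ⟨lt_of_le_of_ne inf_le_right fun h => ?_, fun M hle hMΩ => ?_⟩
  · exact CfsgLib.Aschbacher.OrthEven.not_le_tensorProductSubgroup hQ (by omega) hn1 (by omega) e P
      (h.ge.trans inf_le_left)
  set D := plusData hQ e P hf₁' hf₂ hten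
  have hMQ : M ≤ Cfsg.isometryGroup F Q := hMΩ.trans omegaGL_le
  have hten' : ∀ z u z' u', bform hQ (tenLin (e.trans (Equiv.prodComm _ _)) P z u)
      (tenLin (e.trans (Equiv.prodComm _ _)) P z' u') = f₂ z z' * f₁' u u' := fun z u z' u' => by
    rw [tenLin_comm, tenLin_comm, hten, mul_comm]
  have hS : D.Symp M :=
    { σ_id := fun _ => rfl
      alt₁ := hf₁'.alternating
      alt₂ := hf₂.alternating
      iso := fun g hg X Y => isometry_b hQ (hMQ hg) X Y
      t₁ := fun a k => by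
        obtain ⟨g, hg, hgX⟩ := exists_transv hQ (by omega) (by omega) (e.trans (Equiv.prodComm _ _)) P hf₂ hf₁'
          hten' (fun z u => by rw [tenLin_comm]; exact hpure' u z) a k
        refine ⟨g, hle ⟨?_, hg.2⟩, fun u z => ?_⟩
        · have := CfsgLib.Aschbacher.tensorProductSubgroup_comm (e.trans (Equiv.prodComm _ _)) P hg.1
          rwa [show (e.trans (Equiv.prodComm _ _)).trans (Equiv.prodComm _ _) = e from Equiv.ext fun _ => rfl] at this
        · show (g : Matrix ι ι F) *ᵥ tenLin e P u z = tenLin e P (u + (k * f₁' u a) • a) z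
          have := hgX z u
          rwa [tenLin_comm, tenLin_comm] at this
      t₂ := fun w k => by
        obtain ⟨g, hg, hgX⟩ := exists_transv hQ (by omega) (by omega) e P hf₁' hf₂ hten hpure' w k
        exact ⟨g, hle hg, hgX⟩ }
  rcases TData.preserves_or_omega_le hQ hS hMQ (fun _ _ => rfl) hpure'
    (by rw [Module.finrank_fin_fun]; exact hn1) (by rw [Module.finrank_fin_fun, Module.finrank_fin_fun]; exact hdim)
    (by rw [Module.finrank_fin_fun]; exact h5) hq (by omega) with hpres | hΩ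
  · refine Or.inl (le_antisymm (le_inf (fun g hg => ?_) hMΩ) hle)
    obtain ⟨α, β, hαβ⟩ := hpres g hg
    exact mem_tensor_of_pure (by omega) e P g α β hαβ
  · exact Or.inr (le_antisymm hMΩ hΩ)

end CfsgLib.FormTensor89
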